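import Cfsg.Agent.H57.MonsterThree.Mats
import Cfsg.Agent.H8.U62.Final

/-!
The centralizer of the permutation of type `1^6 3^6` in the automorphism group of the Leech lattice
acting on the fixed sublattice modulo two, and the special unitary group acting on the same space.
-/

set_option autoImplicit false
set_option maxRecDepth 100000

namespace Cfsg.Agent.H57.MonsterThree

open Cfsg Cfsg.Agent.H14 Finset
open H18.Monster.Held (dot_toVec actL act_matAut)
open H8.U62 (vecF mvC)

/-- The permutation as an automorphism of the lattice. -/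
noncomputable def sigA : Co0 := permAut sig sig_mem

theorem act_sigA {x : V} (hx : IsLeech x) : act sigA x = permFun sig x := act_permAut sig_mem hx

theorem act_sigA_pow {x : V} (hx : IsLeech x) (n : ℕ) :
    act (sigA ^ n) x = permFun (sig ^ n) x := by
  induction n with
  | zero => rw [pow_zero, pow_zero, one_act]; rfl
  | succ n ih =>
    rw [pow_succ', pow_succ', mul_act, ih, act_sigA (hx.permFun (pow_mem sig_mem n))]
    rfl

theorem sigA_three : sigA ^ 3 = 1 := act_eq_of_forall fun x hx => by
  rw [act_sigA_pow hx, sig_pow_three, one_act]; rfl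

theorem sigA_ne_one : sigA ≠ 1 := by
  intro e
  have h := congrArg (fun k => act k (eight (rep0 (lc 0)))) e
  simp only [one_act, act_sigA (isLeech_eight _), permFun_eight] at h
  have := (fixed_iff _).1 (eight_injective h)
  rw [lab_rep0] at this
  simp [lc] at this

theorem orderOf_sigA : orderOf sigA = 3 := by
  haveI : Fact (Nat.Prime 3) := ⟨by norm_num⟩
  exact orderOf_eq_prime sigA_three sigA_ne_one

theorem negOne_sq : negOne * negOne = 1 := act_eq_of_forall fun x hx => by
  rw [mul_act, act_negOne hx, act_negOne hx.neg, neg_neg, one_act]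

theorem negOne_comm (a : Co0) : a * negOne = negOne * a :=
  Subgroup.mem_center_iff.1 negOne_mem_center a

/-- The negated permutation is not conjugate to the permutation. -/
theorem sigA_not_negated {k : Co0} : sigA * k ≠ k * sigA * negOne := by
  intro e
  have h1 : k⁻¹ * sigA * k = sigA * negOne := by
    rw [mul_assoc, e, ← mul_assoc, ← mul_assoc, inv_mul_cancel, one_mul]
  have h2 : (k⁻¹ * sigA * k) ^ 3 = 1 := by
    have := conj_pow (i := 3) (a := k⁻¹) (b := sigA)
    rw [inv_inv, sigA_three, mul_one, inv_mul_cancel] at this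
    exact this
  rw [h1, (show Commute sigA negOne from negOne_comm sigA).mul_pow, sigA_three, one_mul, pow_succ,
    pow_two, negOne_sq, one_mul] at h2
  exact negOne_ne_one h2

/-- The centralizer of the permutation. -/
noncomputable def K : Subgroup Co0 := Subgroup.centralizer {sigA}

theorem mem_K {k : Co0} : k ∈ K ↔ k * sigA = sigA * k := Subgroup.mem_centralizer_singleton_iff

theorem fixV_actK {k : Co0} (hk : k ∈ K) {v : V} (hv : FixV v) : FixV (act k v) := by
  refine ⟨isLeech_act k hv.1, ?_⟩
  rw [← act_sigA (isLeech_act k hv.1), ← mul_act, ← mem_K.1 hk, mul_act, act_sigA hv.1, hv.2]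

/-- The action on a code. -/
noncomputable def muFun (k : Co0) (c : Code) : Code := code (act k (repV c))

theorem code_act {k : Co0} {v : V} (hv : FixV v) : code (act k v) = muFun k (code v) :=
  code_act_congr k hv (fixV_repV _) (code_repV _).symm

theorem muFun_eq (k : Co0) (c : Code) : muFun k c = ∑ j, c j • code (act k (unitV j)) := by
  rw [muFun, code_act_linear k (fixV_repV c), code_repV]

theorem muFun_one (c : Code) : muFun 1 c = c := by rw [muFun, one_act, code_repV]

theorem muFun_mul (k : Co0) {l : Co0} (hl : l ∈ K) (c : Code) :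
    muFun (k * l) c = muFun k (muFun l c) := by
  rw [muFun, mul_act, code_act (fixV_actK hl (fixV_repV c))]
  rfl

/-- The additive map of an element. -/
noncomputable def muAdd (k : Co0) : Code →+ Code :=
  AddMonoidHom.mk' (muFun k) fun c d => by
    simp only [muFun_eq, Pi.add_apply, add_smul, sum_add_distrib]

/-- The action of the centralizer on the codes. -/
noncomputable def mu : K →* Equiv.Perm Code where
  toFun k :=
    { toFun := muFun k
      invFun := muFun (k⁻¹ : K)
      left_inv := fun c => by
        rw [← muFun_mul _ k.2, Subgroup.coe_inv, inv_mul_cancel, muFun_one]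
      right_inv := fun c => by
        rw [← muFun_mul _ (k⁻¹ : K).2, Subgroup.coe_inv, mul_inv_cancel, muFun_one] }
  map_one' := Equiv.ext muFun_one
  map_mul' k l := Equiv.ext fun c => muFun_mul _ l.2 c

theorem mu_apply (k : K) (c : Code) : mu k c = muFun k c := rfl

/-- The action depends only on the image modulo the centre. -/
theorem mu_eq_of_mk {k l : K}
    (h : (QuotientGroup.mk (k : Co0) : Spor.Co1) = QuotientGroup.mk (l : Co0)) : mu k = mu l := by
  rw [QuotientGroup.eq, mem_center_iff] at h
  rcases h with e | e
  · exact congrArg mu (Subtype.ext (inv_mul_eq_one.1 e))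
  · refine Equiv.ext fun c => ?_
    show muFun k c = muFun l c
    rw [show (l : Co0) = negOne * k by
      rw [← negOne_comm (k : Co0), ← e, mul_inv_cancel_left]]
    show code _ = code _
    rw [mul_act, act_negOne (isLeech_act _ (fixV_repV c).1), code_neg (isLeech_act _ (fixV_repV c).1)]

/-! ### The tested elements -/

theorem mat_comm {M : H15.Mat} (h : M.ok = true) (ht : commTest M = true) :
    H15.matAut M h ∈ K := by
  rw [mem_K]
  refine act_eq_of_forall fun x hx => ?_
  have hm : ∀ y, IsLeech y → act (H15.matAut M h) y = H15.divMap M.cols y := fun y hy => by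
    rw [act_of_isLeech _ hy, H15.matAut, mkCo0_apply]
  rw [mul_act, mul_act, act_sigA hx, act_sigA (isLeech_act _ hx), hm _ hx,
    hm _ (hx.permFun sig_mem)]
  funext p
  show (H15.colMat M.cols).mulVec (permFun sig x) p / 8 =
    (H15.colMat M.cols).mulVec x (sig.symm p) / 8
  congr 1
  simp only [Matrix.mulVec, dotProduct, permFun]
  refine (Equiv.sum_comp sig _).symm.trans ?_
  refine sum_congr rfl fun q _ => ?_
  rw [Equiv.symm_apply_apply]
  congr 1
  obtain ⟨r, rfl⟩ := sig.surjective p
  rw [Equiv.symm_apply_apply]
  show (M.cols.getD (H15.idx (sig q)) []).getD (H15.idx (sig r)) 0 = _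
  rw [show H15.idx (sig r) = sigIter 1 (H15.idx r) by rw [← idx_pow, pow_one],
    show H15.idx (sig q) = sigIter 1 (H15.idx q) by rw [← idx_pow, pow_one]]
  exact beq_iff_eq.1 (H15.allBelow_eq_true (H15.allBelow_eq_true ht _ (H15.idx_lt r)) _ (H15.idx_lt q))

/-- An element over a generator. -/
noncomputable def gK (g : Fin 4) : K :=
  ⟨H15.matAut (genMat g) (mats_ok.1 g).1, mat_comm _ (mats_ok.1 g).2⟩

/-- The outer element. -/
noncomputable def gO : K := ⟨H15.matAut matO mats_ok.2.1, mat_comm _ mats_ok.2.2⟩

theorem code_mat {M : H15.Mat} (h : M.ok = true) (j : Fin 12) :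
    code (act (H15.matAut M h) (unitV j)) = codeL (actL M (unitL.getD j.val [])) := by
  obtain ⟨e, hl⟩ := act_matAut h (rows_ok.2.2.2 j).2 (H15.leechOk_spec (rows_ok.2.2.2 j).1)
  rw [unitV, e, code_toVec hl]

theorem num_bits {n : ℕ} (h : n < 4096) : num (bits n) = n := by
  refine Nat.eq_of_testBit_eq fun i => ?_
  rcases Nat.lt_or_ge i 12 with hi | hi
  · rw [num, Nat.testBit_ofBits_lt _ _ hi]
    simp only [bits]
    by_cases hb : n.testBit i = true <;> simp [hb]
  · rw [Nat.testBit_eq_false_of_lt (lt_of_lt_of_le (show num (bits n) < 2 ^ 12 from num_lt _)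
        (Nat.pow_le_pow_right (by norm_num) hi)),
      Nat.testBit_eq_false_of_lt (lt_of_lt_of_le (show n < 2 ^ 12 from h) (Nat.pow_le_pow_right (by norm_num) hi))]

theorem single_eq_bits (j : Fin 12) : (Pi.single j 1 : Code) = bits (2 ^ j.val) := by
  rw [bits_two_pow]; funext i; simp [Pi.single_apply]

theorem muFun_single (k : Co0) (j : Fin 12) :
    muFun k (bits (2 ^ j.val)) = code (act k (unitV j)) := by
  rw [bits_two_pow, ← code_unitV, code_act (fixV_unitV j)]

/-! ### The unitary group on the codes -/

variable {F : Type} [H8.U62.Setup F]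

theorem vecF_congr {v w : ℕ} (h : ∀ n < 12, v.testBit n = w.testBit n) :
    vecF (H8.U62.Setup.om : F) v = vecF H8.U62.Setup.om w := by
  funext i
  simp only [vecF, h (2 * i.1) (by omega), h (2 * i.1 + 1) (by omega)]

theorem vecF_num_bits (n : ℕ) :
    vecF (H8.U62.Setup.om : F) (num (bits n)) = vecF H8.U62.Setup.om n := by
  refine vecF_congr fun i hi => ?_
  rw [num, Nat.testBit_ofBits_lt _ _ hi]
  simp only [bits]
  by_cases hb : n.testBit i = true <;> simp [hb]

/-- The codes as vectors over the field with four elements. -/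
noncomputable def toF : Code ≃ (Fin 6 → F) :=
  Equiv.ofBijective (fun c => vecF H8.U62.Setup.om (num c)) ⟨fun c d h => by
      have e := H8.U62.Setup.testBit_of_vecF_eq h
      rw [← bits_num c, ← bits_num d]
      funext i
      simp only [bits, e _ i.2],
    fun x => by
      obtain ⟨v, -, hx⟩ := H8.U62.Setup.exists_vecF x
      exact ⟨bits v, (vecF_num_bits v).trans hx⟩⟩

theorem toF_apply (c : Code) : toF (F := F) c = vecF H8.U62.Setup.om (num c) := rfl

theorem toF_bits (n : ℕ) : toF (F := F) (bits n) = vecF H8.U62.Setup.om n := vecF_num_bits n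

theorem toF_add (c d : Code) : toF (F := F) (c + d) = toF c + toF d := by
  rw [← bits_num c, ← bits_num d, ← bits_xor, toF_bits, toF_bits, toF_bits]
  exact H8.U62.vecF_xor _ H8.U62.Setup.hom H8.U62.Setup.two _ _

/-- A unitary element on the codes. -/
noncomputable def iota : H8.U62.SU6 F →* Equiv.Perm Code where
  toFun g :=
    { toFun := fun c => toF.symm ((H8.U62.mat g).mulVec (toF c))
      invFun := fun c => toF.symm ((H8.U62.mat g⁻¹).mulVec (toF c))
      left_inv := fun c => by
        simp only [Equiv.apply_symm_apply, Matrix.mulVec_mulVec, ← H8.U62.mat_mul, inv_mul_cancel,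
          H8.U62.mat_one, Matrix.one_mulVec, Equiv.symm_apply_apply]
      right_inv := fun c => by
        simp only [Equiv.apply_symm_apply, Matrix.mulVec_mulVec, ← H8.U62.mat_mul, mul_inv_cancel,
          H8.U62.mat_one, Matrix.one_mulVec, Equiv.symm_apply_apply] }
  map_one' := Equiv.ext fun c => by simp [H8.U62.mat_one]
  map_mul' g h := Equiv.ext fun c => by
    simp [Matrix.mulVec_mulVec, H8.U62.mat_mul]

theorem iota_apply (g : H8.U62.SU6 F) (c : Code) :
    toF (iota g c) = (H8.U62.mat g).mulVec (toF c) := Equiv.apply_symm_apply _ _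

theorem iota_injective : Function.Injective (iota (F := F)) := by
  intro g h e
  refine H8.U62.ext_mat (Matrix.ext_iff_mulVec.2 fun x => ?_)
  rw [← toF.apply_symm_apply x, ← iota_apply, ← iota_apply, e]

/-- The additive map of a unitary element. -/
noncomputable def iotaAdd (g : H8.U62.SU6 F) : Code →+ Code :=
  AddMonoidHom.mk' (iota g) fun c d => (toF (F := F)).injective (by
    rw [iota_apply, toF_add, toF_add, iota_apply, iota_apply, Matrix.mulVec_add])

theorem mu_gK (g : Fin 4) : mu (gK g) = iota (H8.U62.subGen 0 g : H8.U62.SU6 F) := by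
  have e : muAdd (gK g : Co0) = iotaAdd (H8.U62.subGen 0 g : H8.U62.SU6 F) := by
    refine AddMonoidHom.functions_ext _ _ _ fun j x => ?_
    rcases (by decide : ∀ z : ZMod 2, z = 0 ∨ z = 1) x with rfl | rfl
    · rw [Pi.single_zero, map_zero, map_zero]
    · rw [single_eq_bits]
      refine (toF (F := F)).injective ?_
      show toF (muFun _ _) = toF (iota _ _)
      rw [muFun_single, iota_apply, toF_bits, gK, code_mat, gen_images, toF_bits,
        H8.U62.mat_subGen, ← H8.U62.vecF_mvC _ H8.U62.Setup.hom H8.U62.Setup.two]
      rfl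
  exact Equiv.ext fun c => congrArg (fun f : Code →+ Code => f c) e

/-- The scalar of order three on the codes. -/
noncomputable def omP : Equiv.Perm Code :=
  (toF (F := F)).trans ((Equiv.piCongrRight fun _ : Fin 6 =>
    Equiv.mulLeft₀ (H8.U62.Setup.om : F) H8.U62.Setup.om_ne_zero).trans toF.symm)

end Cfsg.Agent.H57.MonsterThree
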