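import Cfsg.Agent.H57.MonsterThree.Quot

/-!
The second conjugate of the central involution is conjugate to it times that involution by an element
centralizing the given element of order three.
-/

set_option autoImplicit false

namespace Cfsg.Agent.H57.MonsterThree

open Cfsg.Agent.H14
open scoped commutatorElement
open H18 (commutator_mem_center)
open H18.Monster.Data (gv gv_injective)

namespace Three

variable {G : Type*} [Group G] [Finite G] {z : G}
  {Q : Subgroup (Subgroup.centralizer ({z} : Set G))} [Q.Normal]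
  {D : H18.Monster.Data z Q} {b : G} (S : Three D b)
include S

/-- Two elements central in Sylow subgroups of the pair centralizer generate conjugate subgroups. -/
theorem conj_central {q : Q} {x : G} (hx : gv q = x) (h1 : IsConj z x) (h2 : x ≠ z) {y : G}
    (hyL : y ∈ Subgroup.centralizer ({z, x} : Set G))
    (hbL : b ∈ Subgroup.centralizer ({z, x} : Set G))
    (P P' : Sylow 3 (Subgroup.centralizer ({z, x} : Set G)))
    (hb : ∃ hm : (⟨b, hbL⟩ : Subgroup.centralizer ({z, x} : Set G)) ∈ (P : Subgroup _),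
      (⟨_, hm⟩ : (P : Subgroup (Subgroup.centralizer ({z, x} : Set G)))) ∈ Subgroup.center _)
    (hy : ∃ hm : (⟨y, hyL⟩ : Subgroup.centralizer ({z, x} : Set G)) ∈ (P' : Subgroup _),
      (⟨_, hm⟩ : (P' : Subgroup (Subgroup.centralizer ({z, x} : Set G)))) ∈ Subgroup.center _) :
    ∃ l : Subgroup.centralizer ({z, x} : Set G), (l : G) * y * (l : G)⁻¹ ∈ Subgroup.zpowers b := by
  subst hx
  haveI : Fact (Nat.Prime 3) := ⟨Nat.prime_three⟩
  obtain ⟨hbP, hbc⟩ := hb
  obtain ⟨hyP, hyc⟩ := hy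
  obtain ⟨l, hl⟩ := MulAction.exists_smul_eq (Subgroup.centralizer ({z, gv q} : Set G)) P' P
  have hmem : ∀ v : (Subgroup.centralizer ({z, gv q} : Set G)), v ∈ (P' : Subgroup (Subgroup.centralizer ({z, gv q} : Set G))) → l * v * l⁻¹ ∈ (P : Subgroup (Subgroup.centralizer ({z, gv q} : Set G))) := fun v hv => by
    rw [← hl]
    exact ⟨v, hv, rfl⟩
  have hsurj : ∀ v : (Subgroup.centralizer ({z, gv q} : Set G)), v ∈ (P : Subgroup (Subgroup.centralizer ({z, gv q} : Set G))) → l⁻¹ * v * l ∈ (P' : Subgroup (Subgroup.centralizer ({z, gv q} : Set G))) := fun v hv => by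
    rw [← hl] at hv
    obtain ⟨u, hu, rfl⟩ := hv
    have : l⁻¹ * (MulAut.conj l u) * l = u := by rw [MulAut.conj_apply]; group
    show l⁻¹ * (MulAut.conj l u) * l ∈ _
    rw [this]
    exact hu
  have hc : (⟨_, hmem _ hyP⟩ : (P : Subgroup (Subgroup.centralizer ({z, gv q} : Set G)))) ∈ Subgroup.center (P : Subgroup (Subgroup.centralizer ({z, gv q} : Set G))) := by
    refine Subgroup.mem_center_iff.2 fun v => Subtype.ext ?_
    have e := congrArg Subtype.val (Subgroup.mem_center_iff.1 hyc ⟨_, hsurj v v.2⟩)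
    simp only [Subgroup.coe_mul] at e
    show (v : (Subgroup.centralizer ({z, gv q} : Set G))) * (l * ⟨y, hyL⟩ * l⁻¹) = l * ⟨y, hyL⟩ * l⁻¹ * v
    calc (v : (Subgroup.centralizer ({z, gv q} : Set G))) * (l * ⟨y, hyL⟩ * l⁻¹) = l * ((l⁻¹ * v * l) * ⟨y, hyL⟩) * l⁻¹ := by group
      _ = l * (⟨y, hyL⟩ * (l⁻¹ * v * l)) * l⁻¹ := by rw [e]
      _ = _ := by group
  have hgen : Subgroup.zpowers (⟨_, hbP⟩ : (P : Subgroup (Subgroup.centralizer ({z, gv q} : Set G)))) = Subgroup.center (P : Subgroup (Subgroup.centralizer ({z, gv q} : Set G))) := by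
    refine Subgroup.eq_of_le_of_card_ge (by rw [Subgroup.zpowers_le]; exact hbc) ?_
    rw [center_sylow_card D h1 h2 P, Nat.card_zpowers, ← Subgroup.orderOf_coe, ← Subgroup.orderOf_coe]
    exact le_of_eq S.ord.symm
  rw [← hgen] at hc
  obtain ⟨j, hj⟩ := Subgroup.mem_zpowers_iff.1 hc
  refine ⟨l, Subgroup.mem_zpowers_iff.2 ⟨j, ?_⟩⟩
  have e := congrArg (fun v : (P : Subgroup (Subgroup.centralizer ({z, gv q} : Set G))) => ((v : (Subgroup.centralizer ({z, gv q} : Set G))) : G)) hj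
  simp only [SubgroupClass.coe_zpow, Subgroup.coe_mul, Subgroup.coe_inv] at e
  exact e

/-- The element `z x` is conjugate to `z` by an element commuting with `b`. -/
theorem conj_mul_z {r : S.qFix} {x : G} (hx : gv (S.qOf r) = x) (h1 : IsConj z x) (h2 : x ≠ z)
    (hbL : b ∈ Subgroup.centralizer ({z, x} : Set G))
    (P : Sylow 3 (Subgroup.centralizer ({z, x} : Set G)))
    (hb : ∃ hm : (⟨b, hbL⟩ : Subgroup.centralizer ({z, x} : Set G)) ∈ (P : Subgroup _),
      (⟨_, hm⟩ : (P : Subgroup (Subgroup.centralizer ({z, x} : Set G)))) ∈ Subgroup.center _) :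
    ∃ c : G, c * b = b * c ∧ c * z * c⁻¹ = z * ((r : cen b z) : G) := by
  haveI : Fact (Nat.Prime 3) := ⟨Nat.prime_three⟩
  have hxr : x = ((r : cen b z) : G) := hx.symm.trans (S.gv_qOf r)
  rw [← hxr]
  have hxb : x * b = b * x := by rw [hxr]; exact Subgroup.mem_centralizer_singleton_iff.1 (r : cen b z).2.2
  have hzx : z * x = x * z := by
    rw [hxr]; exact (Subgroup.mem_centralizer_singleton_iff.1 (r : cen b z).2.1).symm
  -- an element of the fixed part moving `x`
  have hrc : ¬ r ∈ Subgroup.center S.qFix := by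
    rw [S.qFix_center]
    rintro (e | e)
    · obtain ⟨c, hc⟩ := isConj_iff.1 h1
      rw [hxr, e] at hc
      exact D.z_ne_one (conj_eq_one_iff.1 hc)
    · exact h2 (by rw [hxr, e]; rfl)
  obtain ⟨u, hu⟩ : ∃ u : S.qFix, u * r ≠ r * u := by
    by_contra hcon
    push Not at hcon
    exact hrc (Subgroup.mem_center_iff.2 hcon)
  have hux : ((u : cen b z) : G) * x * ((u : cen b z) : G)⁻¹ = z * x := by
    have hc : ⁅u, r⁆ ∈ Subgroup.center S.qFix := commutator_mem_center S.qFix_extraspecial u r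
    rcases (S.qFix_center _).1 hc with e | e
    · exact absurd (commutatorElement_eq_one_iff_mul_comm.1 e) hu
    · have := congrArg (fun r : S.qFix => ((r : cen b z) : G)) e
      simp only [commutatorElement_def, Subgroup.coe_mul, Subgroup.coe_inv] at this
      rw [← mul_inv_eq_iff_eq_mul, hxr]
      exact this
  -- an element exchanging `z` and `x`
  obtain ⟨g, hg⟩ := isConj_iff.1 h1
  have hgF : g * z * g⁻¹ ∈ D.F := D.mem_F.2 ⟨S.qOf r, hx.trans hg.symm⟩
  obtain ⟨q', hq'⟩ : ∃ q' : Q, gv q' = g⁻¹ * z * g := by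
    obtain ⟨a, ha, e⟩ := D.z_mem_conj hgF
    obtain ⟨q', hq'⟩ := D.mem_F.1 ha
    refine ⟨q', hq'.trans ?_⟩
    simp only [MulEquiv.coe_toMonoidHom, MulAut.conj_apply] at e
    rw [← e]; group
  have hq'z : gv q' ≠ z := by
    intro e
    rw [hq'] at e
    apply h2
    rw [← hg]
    calc g * z * g⁻¹ = g * (g⁻¹ * z * g) * g⁻¹ := by rw [e]
      _ = z := by group
  obtain ⟨h, hhC, hh⟩ := D.exists_conj_second (q := S.qOf r) (r := q')
    (hx.symm ▸ h1) (hx.symm ▸ h2) (by rw [hq']; exact isConj_iff.2 ⟨g⁻¹, by rw [inv_inv]⟩) hq'z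
  rw [hx, hq'] at hh
  have hhz : h * z * h⁻¹ = z := by
    rw [Subgroup.mem_centralizer_singleton_iff.1 hhC, mul_inv_cancel_right]
  set w := g * h with hw
  have hwz : w * z * w⁻¹ = x := by
    calc w * z * w⁻¹ = g * (h * z * h⁻¹) * g⁻¹ := by rw [hw]; group
      _ = x := by rw [hhz, hg]
  have hwx : w * x * w⁻¹ = z := by
    calc w * x * w⁻¹ = g * (h * x * h⁻¹) * g⁻¹ := by rw [hw]; group
      _ = z := by rw [hh]; group
  -- it normalizes the pair centralizer
  have hwL : ∀ a : G, a ∈ (Subgroup.centralizer ({z, x} : Set G)) → w * a * w⁻¹ ∈ (Subgroup.centralizer ({z, x} : Set G)) ∧ w⁻¹ * a * w ∈ (Subgroup.centralizer ({z, x} : Set G)) := by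
    intro a ha
    obtain ⟨haz, hax⟩ := mem_pair.1 ha
    have hz' : w⁻¹ * z * w = x := by rw [← hwx]; group
    have hx' : w⁻¹ * x * w = z := by rw [← hwz]; group
    refine ⟨mem_pair.2 ⟨?_, ?_⟩, mem_pair.2 ⟨?_, ?_⟩⟩
    · calc w * a * w⁻¹ * z = w * (a * x) * w⁻¹ := by rw [← hwx]; group
        _ = w * (x * a) * w⁻¹ := by rw [hax]
        _ = z * (w * a * w⁻¹) := by rw [← hwx]; group
    · calc w * a * w⁻¹ * x = w * (a * z) * w⁻¹ := by rw [← hwz]; group
        _ = w * (z * a) * w⁻¹ := by rw [haz]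
        _ = x * (w * a * w⁻¹) := by rw [← hwz]; group
    · calc w⁻¹ * a * w * z = w⁻¹ * (a * x) * w := by rw [← hx']; group
        _ = w⁻¹ * (x * a) * w := by rw [hax]
        _ = z * (w⁻¹ * a * w) := by rw [← hx']; group
    · calc w⁻¹ * a * w * x = w⁻¹ * (a * z) * w := by rw [← hz']; group
        _ = w⁻¹ * (z * a) * w := by rw [haz]
        _ = x * (w⁻¹ * a * w) := by rw [← hz']; group
  let θ : (Subgroup.centralizer ({z, x} : Set G)) ≃* (Subgroup.centralizer ({z, x} : Set G)) :=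
    { toFun := fun a => ⟨w * a * w⁻¹, (hwL a a.2).1⟩
      invFun := fun a => ⟨w⁻¹ * a * w, (hwL a a.2).2⟩
      left_inv := fun a => Subtype.ext (by group)
      right_inv := fun a => Subtype.ext (by group)
      map_mul' := fun a c => Subtype.ext (by show w * (a * c : G) * w⁻¹ = _; simp) }
  let P' : Sylow 3 (Subgroup.centralizer ({z, x} : Set G)) := Sylow.ofCard ((P : Subgroup (Subgroup.centralizer ({z, x} : Set G))).map θ.toMonoidHom) (by
    rw [Subgroup.card_map_of_injective θ.injective, P.card_eq_multiplicity])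
  obtain ⟨hbP, hbc⟩ := hb
  have hy : ∃ hm : (⟨w * b * w⁻¹, (hwL b hbL).1⟩ : (Subgroup.centralizer ({z, x} : Set G))) ∈ (P' : Subgroup (Subgroup.centralizer ({z, x} : Set G))),
      (⟨_, hm⟩ : (P' : Subgroup (Subgroup.centralizer ({z, x} : Set G)))) ∈ Subgroup.center (P' : Subgroup (Subgroup.centralizer ({z, x} : Set G))) := by
    refine ⟨⟨⟨b, hbL⟩, hbP, rfl⟩, Subgroup.mem_center_iff.2 fun v => Subtype.ext ?_⟩
    obtain ⟨v, a, ha, rfl⟩ := v
    have e := congrArg Subtype.val (Subgroup.mem_center_iff.1 hbc ⟨a, ha⟩)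
    show θ a * θ ⟨b, hbL⟩ = θ ⟨b, hbL⟩ * θ a
    rw [← map_mul, ← map_mul]
    exact congrArg θ e
  obtain ⟨l, hnb⟩ := S.conj_central hx h1 h2 (hwL b hbL).1 hbL P P' ⟨hbP, hbc⟩ hy
  obtain ⟨hlz, hlx⟩ := mem_pair.1 l.2
  set n := (l : G) * w with hn
  replace hnb : n * b * n⁻¹ ∈ Subgroup.zpowers b := by
    rw [show n * b * n⁻¹ = (l : G) * (w * b * w⁻¹) * (l : G)⁻¹ by rw [hn]; group]
    exact hnb
  have hnz : n * z * n⁻¹ = x := by
    calc n * z * n⁻¹ = (l : G) * (w * z * w⁻¹) * (l : G)⁻¹ := by rw [hn]; group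
      _ = x := by rw [hwz, hlx, mul_inv_cancel_right]
  have hnx : n * x * n⁻¹ = z := by
    calc n * x * n⁻¹ = (l : G) * (w * x * w⁻¹) * (l : G)⁻¹ := by rw [hn]; group
      _ = z := by rw [hwx, hlz, mul_inv_cancel_right]
  obtain ⟨j, hj⟩ := Subgroup.mem_zpowers_iff.1 hnb
  refine ⟨n * ((u : cen b z) : G) * n⁻¹, ?_, ?_⟩
  · have hub : ((u : cen b z) : G) * b = b * ((u : cen b z) : G) :=
      Subgroup.mem_centralizer_singleton_iff.1 (u : cen b z).2.2
    -- `b` is a power of its image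
    have hord : orderOf (b ^ j) = 3 := by
      rw [hj]
      show orderOf (MulAut.conj n b) = 3
      rw [MulEquiv.orderOf_eq, S.ord]
    have hbmem : b ∈ Subgroup.zpowers (b ^ j) := by
      have hle : Subgroup.zpowers (b ^ j) = Subgroup.zpowers b :=
        Subgroup.eq_of_le_of_card_ge (by rw [Subgroup.zpowers_le]; exact ⟨j, rfl⟩)
          (by rw [Nat.card_zpowers, Nat.card_zpowers, hord, S.ord])
      rw [hle]; exact Subgroup.mem_zpowers b
    obtain ⟨i, hi⟩ := Subgroup.mem_zpowers_iff.1 hbmem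
    have hcomm : Commute (n * ((u : cen b z) : G) * n⁻¹) (b ^ j) := by
      rw [hj]
      show _ = _
      calc n * ((u : cen b z) : G) * n⁻¹ * (n * b * n⁻¹) = n * (((u : cen b z) : G) * b) * n⁻¹ := by
            group
        _ = n * (b * ((u : cen b z) : G)) * n⁻¹ := by rw [hub]
        _ = n * b * n⁻¹ * (n * ((u : cen b z) : G) * n⁻¹) := by group
    have := (hcomm.zpow_right i).eq
    rwa [hi] at this
  · have e : n⁻¹ * z * n = x := by rw [← hnx]; group
    calc n * ((u : cen b z) : G) * n⁻¹ * z * (n * ((u : cen b z) : G) * n⁻¹)⁻¹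
        = n * (((u : cen b z) : G) * (n⁻¹ * z * n) * ((u : cen b z) : G)⁻¹) * n⁻¹ := by group
      _ = n * (z * x) * n⁻¹ := by rw [e, hux]
      _ = (n * z * n⁻¹) * (n * x * n⁻¹) := by group
      _ = z * x := by rw [hnz, hnx, hzx]

end Three

end Cfsg.Agent.H57.MonsterThree
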