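import Cfsg.Agent.H57.MonsterThree.Data
import Cfsg.Agent.H8.U62.Check

/-!
The codes reached from two short vectors by the generators of the unitary subgroup.
-/

set_option autoImplicit false
set_option maxRecDepth 100000

namespace Cfsg.Agent.H57.MonsterThree

open H8.U62 (mvC force)

/-- Enlarging a set of short codes by an image. -/
def step (m : ℕ) (t : ℕ × ℕ × ℕ) : ℕ :=
  bif m.testBit t.2.1 && (mvC ((H8.U62.subGenC 0).getD (t.2.2 % 4) 0) t.2.1 == t.1) then
    m ||| 2 ^ t.1 else m

/-- The set obtained along a list. -/
def runMask : List (ℕ × ℕ × ℕ) → ℕ → ℕ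
  | [], m => m
  | t :: l, m => force (step m t) fun m' => runMask l m'

/-- The codes of the seeds. -/
def seedMask : ℕ := 2 ^ seedC.getD 0 0 ||| 2 ^ seedC.getD 1 0

/-- The short codes. -/
def shortMask : ℕ := runMask shortTree seedMask

/-- The codes that are neither zero nor known to be short. -/
def candList : List ℕ :=
  force shortMask fun m => (List.range 4096).filter fun n => !(n == 0) && !m.testBit n

theorem candList_length : candList.length ≤ 1701 := by
  have h : Nat.ble candList.length 1701 = true := by decide +kernel
  exact Nat.le_of_ble_eq_true h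

end Cfsg.Agent.H57.MonsterThree
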