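import Cfsg.Agent.H57.MonsterThree.Action
import Cfsg.Agent.H57.MonsterThree.Short
import Cfsg.Agent.H18.Monster.CrossClass
import Cfsg.Agent.H3.Isotropic
import Cfsg.Agent.S0283
import Cfsg.Agent.H16.F4

/-!
The image of the centralizer on the codes: a group with a subgroup of index two of type triple cover
of `PSU 4` over nine elements.
-/

set_option autoImplicit false
set_option maxRecDepth 100000

namespace Cfsg.Agent.H57.MonsterThree

open Cfsg Cfsg.Agent.H14 Finset
open H18.Monster.Held (dot_toVec actL eight_list)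
open H8.U62 (vecF mvC force force_eq)

/-- A field with four elements with a generator. -/
@[reducible] noncomputable def setupF4 : H8.U62.Setup H16.F4 :=
  { (inferInstance : Field H16.F4) with
    om := H16.F4.w
    hom := by decide
    two := by decide
    fin := inferInstance
    card := H16.F4.card_eq }

variable {F : Type} [H8.U62.Setup F]

theorem iota_bits (g : Fin 4) (n : ℕ) :
    iota (H8.U62.subGen 0 g : H8.U62.SU6 F) (bits n) =
      bits (mvC ((H8.U62.subGenC 0).getD g.val 0) n) := by
  refine (toF (F := F)).injective ?_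
  rw [iota_apply, toF_bits, toF_bits, H8.U62.mat_subGen,
    H8.U62.vecF_mvC _ H8.U62.Setup.hom H8.U62.Setup.two]
  rfl

theorem toF_omP (c : Code) : toF (F := F) (omP (F := F) c) = (H8.U62.Setup.om : F) • toF c := by
  rw [omP, Equiv.trans_apply, Equiv.trans_apply, Equiv.apply_symm_apply]
  rfl

theorem omP_bits (n : ℕ) : omP (F := F) (bits n) = bits (H8.U62.sW n) := by
  refine (toF (F := F)).injective ?_
  rw [toF_omP, toF_bits, toF_bits, H8.U62.vecF_sW _ H8.U62.Setup.hom H8.U62.Setup.two]

/-! ### Short codes -/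

/-- A code of a fixed vector of squared length at most 48. -/
def IsShort (c : Code) : Prop := ∃ v, FixV v ∧ code v = c ∧ sqNorm v ≤ 48

theorem seeds_ok : ∀ k : Fin 2, H15.leechOk (seedL.getD k.val []) = true ∧
    (seedL.getD k.val []).length = 24 ∧
    codeL (seedL.getD k.val []) = bits (seedC.getD k.val 0) ∧
    H15.listDot (seedL.getD k.val []) (seedL.getD k.val []) ≤ 48 := by decide +kernel

theorem seeds_fixed : ∀ (k : Fin 2) (p : GolayPt),
    H15.toVec (seedL.getD k.val []) (sig.symm p) = H15.toVec (seedL.getD k.val []) p := by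
  decide +kernel

theorem isShort_seed (k : Fin 2) : IsShort (bits (seedC.getD k.val 0)) := by
  obtain ⟨h1, h2, h3, h4⟩ := seeds_ok k
  refine ⟨_, ⟨H15.leechOk_spec h1, funext fun p => seeds_fixed k p⟩, by rw [code_toVec h2, h3], ?_⟩
  have e : sqNorm (H15.toVec (seedL.getD k.val [])) =
      dotInt (H15.toVec (seedL.getD k.val [])) (H15.toVec (seedL.getD k.val [])) :=
    sum_congr rfl fun i _ => sq _
  rwa [e, dot_toVec h2 h2]

theorem IsShort.gK {c : Code} (h : IsShort c) (g : Fin 4) : IsShort (mu (gK g) c) := by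
  obtain ⟨v, hv, hc, hn⟩ := h
  refine ⟨act (MonsterThree.gK g : Co0) v, fixV_actK (MonsterThree.gK g).2 hv, ?_, ?_⟩
  · rw [code_act hv, hc, mu_apply]
  · rwa [sqNorm_act _ hv.1]

theorem runMask_short (l : List (ℕ × ℕ × ℕ)) : ∀ m : ℕ,
    (∀ n, m.testBit n = true → IsShort (bits n)) →
      ∀ n, (runMask l m).testBit n = true → IsShort (bits n) := by
  induction l with
  | nil => intro m h n hn; exact h n hn
  | cons t l ih =>
    intro m h
    rw [runMask, force_eq]
    refine ih _ fun n hn => ?_
    rw [step] at hn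
    cases hc : (m.testBit t.2.1 && (mvC ((H8.U62.subGenC 0).getD (t.2.2 % 4) 0) t.2.1 == t.1)) with
    | false => rw [hc, cond_false] at hn; exact h n hn
    | true =>
      rw [hc, cond_true, Nat.testBit_or, Bool.or_eq_true] at hn
      rcases hn with hn | hn
      · exact h n hn
      rw [Nat.testBit_two_pow, decide_eq_true_eq] at hn
      rw [Bool.and_eq_true, beq_iff_eq] at hc
      rw [← hn, ← hc.2]
      have hs := (h _ hc.1).gK ⟨t.2.2 % 4, Nat.mod_lt _ (by norm_num)⟩
      letI := setupF4
      rwa [mu_gK (F := H16.F4), iota_bits] at hs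

theorem shortMask_short {n : ℕ} (h : shortMask.testBit n = true) : IsShort (bits n) := by
  refine runMask_short shortTree seedMask (fun m hm => ?_) n h
  rw [seedMask, Nat.testBit_or, Bool.or_eq_true, Nat.testBit_two_pow, Nat.testBit_two_pow,
    decide_eq_true_eq, decide_eq_true_eq] at hm
  rcases hm with rfl | rfl
  exacts [isShort_seed 0, isShort_seed 1]

theorem fixV_eight : FixV (eight oo) :=
  ⟨isLeech_eight oo, by rw [permFun_eight]; exact congrArg _ sig_fix_oo⟩

theorem code_eight_ne : code (eight oo) ≠ 0 := by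
  rw [show (eight oo : V) = _ from funext eight_list, code_toVec (by simp)]
  decide +kernel

theorem mu_zero (k : K) : mu k 0 = 0 := (muAdd (k : Co0)).map_zero

/-- Images of the standard class are among the candidates. -/
theorem image_eight_mem (k : K) :
    mu k (code (eight oo)) ∈ (candList.toFinset.image bits : Finset Code) := by
  set c := mu k (code (eight oo)) with hc
  refine mem_image.2 ⟨num c, List.mem_toFinset.2 ?_, bits_num c⟩
  rw [candList, force_eq, List.mem_filter, List.mem_range, Bool.and_eq_true, Bool.not_eq_true',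
    Bool.not_eq_true', beq_eq_false_iff_ne]
  refine ⟨num_lt c, fun e => ?_, ?_⟩
  · have hc0 : c = 0 := by rw [← bits_num c, e, bits_zero]
    exact code_eight_ne ((mu k).injective ((hc ▸ hc0).trans (mu_zero k).symm))
  · by_contra hcon
    rw [Bool.not_eq_false] at hcon
    obtain ⟨v, hv, hvc, hvn⟩ := shortMask_short hcon
    rw [bits_num, hc, mu_apply, ← code_act fixV_eight] at hvc
    have hy : sqNorm (act (k : Co0) (eight oo)) = 64 := by
      rw [sqNorm_act _ (isLeech_eight oo), sqNorm_eight]
    obtain ⟨t, ht, e⟩ := congr_of_code (fixV_actK k.2 fixV_eight) hv hvc.symm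
    rcases congr_two_cases (isLeech_act _ (isLeech_eight oo)) hv.1 ht e hy.le (by omega) with
      h | h | h
    · rw [h, hy] at hvn; omega
    · rw [h, sqNorm_neg, hy] at hvn; omega
    · omega

/-! ### The bound -/

/-- The elements fixing the standard class. -/
noncomputable def stabK : Subgroup K :=
  (MulAction.stabilizer (Equiv.Perm Code) (code (eight oo))).comap mu

theorem mem_stabK {k : K} : k ∈ stabK ↔ mu k (code (eight oo)) = code (eight oo) := Iff.rfl

theorem mono_comm {π : Equiv.Perm GolayPt} (hπ : π ∈ M24) {c : GolayPt → ZMod 2} (hc : c ∈ golayCode)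
    (h : monoAut π hπ c hc * sigA = sigA * monoAut π hπ c hc) :
    π * sig = sig * π ∧ ∀ p, c (sig p) = c p := by
  have hc' : (fun p => c (sig.symm p)) ∈ golayCode := ((mem_M24_iff _).1 sig_mem c).1 hc
  have h1 : monoAut π hπ c hc * sigA = monoAut (π * sig) (mul_mem hπ sig_mem) c hc :=
    act_eq_of_forall fun x hx => by
      rw [mul_act, act_sigA hx, act_monoAut hπ hc (hx.permFun sig_mem), act_monoAut _ hc hx]
      rfl
  have h2 : sigA * monoAut π hπ c hc = monoAut (sig * π) (mul_mem sig_mem hπ) _ hc' :=
    act_eq_of_forall fun x hx => by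
      rw [mul_act, act_monoAut hπ hc hx, act_sigA ((hx.permFun hπ).signFun hc), act_monoAut _ hc' hx]
      rfl
  rw [h1, h2] at h
  obtain ⟨e1, e2⟩ := monoAut_injective h
  refine ⟨e1, fun p => ?_⟩
  have := congrFun e2 (sig p)
  rwa [Equiv.symm_apply_apply] at this

theorem card_stabK_le : Nat.card stabK ≤ 1080 * 64 := by
  have h : ∀ k : stabK, ∃ p : cSub × FixW, ∃ hπ : (p.1 : Equiv.Perm GolayPt) ∈ M24,
      ((k : K) : Co0) = monoAut p.1 hπ p.2.1 p.2.2.1 := by
    intro k
    have hk := mem_stabK.1 k.2
    rw [mu_apply, ← code_act fixV_eight] at hk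
    obtain ⟨t, ht, e⟩ := congr_of_code (fixV_actK (k : K).2 fixV_eight) fixV_eight hk
    obtain ⟨π, hπ, c, hc, e'⟩ := exists_mono (H18.Monster.mem_crossStab_iff_class.2 ⟨t, ht, e⟩)
    have h := mem_K.1 (k : K).2
    rw [e'] at h
    obtain ⟨h1, h2⟩ := mono_comm hπ hc h
    exact ⟨(⟨π, mem_cSub.2 ⟨hπ, h1⟩⟩, ⟨c, hc, h2⟩), hπ, e'⟩
  choose p hp hpe using h
  refine (Nat.card_le_card_of_injective p fun a b e => ?_).trans ?_
  · refine Subtype.ext (Subtype.ext ?_)
    rw [hpe a, hpe b]
    simp only [e]
  · rw [Nat.card_prod]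
    exact Nat.mul_le_mul card_cSub_le card_fixW_le

theorem index_stabK_le : stabK.index ≤ 1701 := by
  rw [Subgroup.index]
  let φ : K ⧸ stabK → (candList.toFinset.image bits : Finset Code) :=
    fun a => ⟨mu a.out (code (eight oo)), image_eight_mem a.out⟩
  refine (Nat.card_le_card_of_injective φ fun a b e => ?_).trans ?_
  · rw [← Quotient.out_eq a, ← Quotient.out_eq b]
    refine QuotientGroup.eq.2 (mem_stabK.2 ?_)
    rw [map_mul, map_inv, Equiv.Perm.mul_apply, ← show mu a.out (code (eight oo)) =
      mu b.out (code (eight oo)) from congrArg Subtype.val e, ← Equiv.Perm.mul_apply,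
      inv_mul_cancel, Equiv.Perm.one_apply]
  · rw [Nat.card_eq_fintype_card, Fintype.card_coe]
    exact card_image_le.trans ((List.toFinset_card_le _).trans candList_length)

theorem card_K_le : Nat.card K ≤ 117573120 := by
  rw [← stabK.card_mul_index]
  exact (Nat.mul_le_mul card_stabK_le index_stabK_le).trans (by norm_num)

/-! ### The kernel -/

/-- The negated permutation in the centralizer. -/
noncomputable def negSig : K :=
  ⟨sigA * negOne, mem_K.2 (by rw [mul_assoc, ← negOne_comm sigA])⟩

theorem orderOf_negSig : orderOf negSig = 6 := by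
  haveI : Fact (Nat.Prime 2) := ⟨Nat.prime_two⟩
  rw [← Subgroup.orderOf_coe]
  show orderOf (sigA * negOne) = 6
  have h2 : orderOf negOne = 2 := orderOf_eq_prime (by rw [pow_two, negOne_sq]) negOne_ne_one
  rw [(show Commute sigA negOne from negOne_comm sigA).orderOf_mul_eq_mul_orderOf_of_coprime
    (by rw [orderOf_sigA, h2]; norm_num), orderOf_sigA, h2]

theorem mu_negSig : mu negSig = 1 := by
  refine Equiv.ext fun c => ?_
  show code (act (sigA * negOne) (repV c)) = c
  rw [mul_act, act_negOne (fixV_repV c).1, act_sigA (fixV_repV c).1.neg,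
    show permFun sig (-repV c) = -permFun sig (repV c) from rfl, (fixV_repV c).2,
    code_neg (fixV_repV c).1, code_repV]

/-! ### The subgroup of index two -/

variable (F)

/-- The unitary subgroup on the codes. -/
noncomputable def mSub : Subgroup (Equiv.Perm Code) :=
  (H8.U62.sub (F := F) 0).map iota

theorem mSub_le : mSub F ≤ mu.range := by
  rw [mSub, H8.U62.sub, MonoidHom.map_closure, Subgroup.closure_le]
  rintro _ ⟨_, ⟨g, rfl⟩, rfl⟩
  exact ⟨gK g, mu_gK g⟩

theorem card_mSub : Nat.card (mSub F) = 9797760 := by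
  rw [mSub, Subgroup.card_map_of_injective iota_injective, H8.U62.card_sub]

theorem omP_comm {m : Equiv.Perm Code} (h : m ∈ mSub F) : m * omP (F := F) = omP (F := F) * m := by
  obtain ⟨g, -, rfl⟩ := h
  refine Equiv.ext fun c => (toF (F := F)).injective ?_
  rw [Equiv.Perm.mul_apply, Equiv.Perm.mul_apply, iota_apply, toF_omP, toF_omP, iota_apply,
    Matrix.mulVec_smul]

theorem gO_witness : codeL (actL matO (unitL.getD 1 [])) ≠
    bits (H8.U62.sW (num (codeL (actL matO (unitL.getD 0 []))))) := by decide +kernel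

theorem gO_not_comm : mu gO * omP (F := F) ≠ omP (F := F) * mu gO := by
  intro e
  have h := congrFun (congrArg DFunLike.coe e) (bits (2 ^ (0 : Fin 12).val))
  rw [Equiv.Perm.mul_apply, Equiv.Perm.mul_apply, omP_bits,
    show H8.U62.sW (2 ^ (0 : Fin 12).val) = 2 ^ (1 : Fin 12).val by decide +kernel,
    mu_apply, mu_apply, muFun_single, muFun_single, gO, code_mat, code_mat] at h
  rw [← bits_num (codeL (actL matO (unitL.getD (0 : Fin 12).val []))), omP_bits] at h
  exact gO_witness h

theorem gO_not_mem : mu gO ∉ mSub F := fun h => gO_not_comm F (omP_comm F h)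

/-- The image of the centralizer. -/
noncomputable abbrev Img : Subgroup (Equiv.Perm Code) := mu.range

/-- The subgroup of index two. -/
noncomputable def qM : Subgroup Img := (mSub F).subgroupOf Img

theorem card_qM : Nat.card (qM F) = 9797760 := by
  rw [qM, Nat.card_congr (Subgroup.subgroupOfEquivOfLe (mSub_le F)).toEquiv, card_mSub]

theorem index_qM : (qM F).index = 2 ∧ Nat.card mu.ker = 6 := by
  have h1 := (qM F).card_mul_index
  rw [card_qM] at h1
  have h2 : 2 ≤ (qM F).index := by
    rcases Nat.eq_zero_or_pos (qM F).index with h | h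
    · exact absurd h Subgroup.index_ne_zero_of_finite
    rcases Nat.lt_or_ge (qM F).index 2 with h' | h'
    · exfalso
      have e : qM F = ⊤ := Subgroup.index_eq_one.1 (by omega)
      have hm : (⟨mu gO, gO, rfl⟩ : Img) ∈ qM F := e ▸ Subgroup.mem_top _
      exact gO_not_mem F hm
    · exact h'
  have h3 : 6 ≤ Nat.card mu.ker := by
    rw [← orderOf_negSig, ← Nat.card_zpowers]
    exact Subgroup.card_le_of_le (by rw [Subgroup.zpowers_le]; exact mu_negSig)
  have h4 := mu.ker.card_mul_index
  rw [Subgroup.index_ker, ← h1] at h4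
  have h5 := card_K_le
  rw [← h4] at h5
  have h6 : 6 * (9797760 * 2) ≤ Nat.card mu.ker * (9797760 * (qM F).index) :=
    Nat.mul_le_mul h3 (Nat.mul_le_mul_left _ h2)
  constructor
  · by_contra hne
    have : 6 * (9797760 * 3) ≤ Nat.card mu.ker * (9797760 * (qM F).index) :=
      Nat.mul_le_mul h3 (Nat.mul_le_mul_left _ (by omega))
    omega
  · by_contra hne
    have : 7 * (9797760 * 2) ≤ Nat.card mu.ker * (9797760 * (qM F).index) :=
      Nat.mul_le_mul (by omega) (Nat.mul_le_mul_left _ h2)
    omega

/-- The isomorphism with the unitary subgroup. -/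
noncomputable def qEquiv : H8.U62.sub (F := F) 0 ≃* qM F :=
  ((H8.U62.sub (F := F) 0).equivMapOfInjective iota iota_injective).trans
    (Subgroup.subgroupOfEquivOfLe (mSub_le F)).symm

theorem omP_mem : omP (F := F) ∈ mSub F := by
  have hcard := H8.U62.card_center (F := F)
  haveI : Nontrivial (Subgroup.center (H8.U62.SU6 F)) := Finite.one_lt_card_iff_nontrivial.1 (by omega)
  obtain ⟨⟨x, hx⟩, hne⟩ := exists_ne (1 : Subgroup.center (H8.U62.SU6 F))
  obtain ⟨l, hl⟩ := (H3.mem_center_SU_iff H8.U62.Setup.hF (by norm_num) x).1 hx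
  have key : ∀ m : H8.U62.SU6 F, (∀ v, (H8.U62.mat m).mulVec v = (H8.U62.Setup.om : F) • v) →
      m ∈ H8.U62.sub (F := F) 0 → omP (F := F) ∈ mSub F := fun m hm hmem =>
    ⟨m, hmem, Equiv.ext fun c => (toF (F := F)).injective (by rw [iota_apply, hm, toF_omP])⟩
  have hxs := H8.U62.center_le_sub (F := F) 0 hx
  obtain ⟨a, b, hab⟩ := H8.U62.Setup.exists_fe l
  cases a <;> cases b <;> simp [H8.U62.fe, H8.U62.bF] at hab <;> subst hab
  · exfalso
    have h := hl (Pi.single 0 1)
    rw [zero_smul] at h
    have h' := congrArg (fun w => (H8.U62.mat x⁻¹).mulVec w) h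
    simp only [Matrix.mulVec_mulVec, ← H8.U62.mat_mul, inv_mul_cancel, H8.U62.mat_one,
      Matrix.one_mulVec, Matrix.mulVec_zero] at h'
    exact one_ne_zero (α := F) (by simpa using congrFun h' 0)
  · exact key x hl hxs
  · exfalso
    refine hne (Subtype.ext (H8.U62.ext_mat (Matrix.ext_iff_mulVec.2 fun v => ?_)))
    simp [H8.U62.mat_one, hl v]
  · refine key (x * x) (fun v => ?_) (mul_mem hxs hxs)
    rw [H8.U62.mat_mul, ← Matrix.mulVec_mulVec, hl, hl, smul_smul]
    congr 1
    linear_combination H8.U62.Setup.hom (F := F) + H8.U62.Setup.two (F := F) * (1 + H8.U62.Setup.om : F)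

/-- The image has the structure of the triple cover of `PSU 4` extended by an outer element. -/
theorem image_structure (L : Type) [H8.U62.Setup9 L] :
    ∃ (M Z : Subgroup Img) (_ : Z.Normal), Z ≤ M ∧ Nat.card Z = 3 ∧ M.index = 2 ∧
      Nonempty (M ⧸ Z.subgroupOf M ≃* PSU 4 L 3) ∧
      (∀ X : Subgroup Img, X.Normal → IsPGroup 2 X → X = ⊥) ∧ Nat.card mu.ker = 6 := by
  letI := setupF4
  obtain ⟨hidx, hker⟩ := index_qM H16.F4
  haveI hn : (qM H16.F4).Normal := Subgroup.normal_of_index_eq_two hidx
  set M := qM H16.F4 with hM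
  let e : H8.U62.sub (F := H16.F4) 0 ≃* M := qEquiv H16.F4
  set Z : Subgroup Img := (Subgroup.center M).map M.subtype with hZ
  have hcen : Nat.card (Subgroup.center (H8.U62.sub (F := H16.F4) 0)) = 3 := by
    rw [H8.U62.center_le_center_sub,
      Nat.card_congr (Subgroup.subgroupOfEquivOfLe (H8.U62.center_le_sub 0)).toEquiv,
      H8.U62.card_center]
  have hmap : (Subgroup.center (H8.U62.sub (F := H16.F4) 0)).map e.toMonoidHom = Subgroup.center M :=
    le_antisymm (by
        rintro _ ⟨v, hv, rfl⟩
        refine Subgroup.mem_center_iff.2 fun w => ?_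
        obtain ⟨u, rfl⟩ := e.surjective w
        show e u * e v = e v * e u
        rw [← map_mul, ← map_mul, Subgroup.mem_center_iff.1 hv u])
      fun v hv => by
        obtain ⟨u, rfl⟩ := e.surjective v
        refine ⟨u, Subgroup.mem_center_iff.2 fun w => e.injective ?_, rfl⟩
        rw [map_mul, map_mul]
        exact Subgroup.mem_center_iff.1 hv (e w)
  have hZn : Z.Normal := ConjAct.normal_of_characteristic_of_normal
  refine ⟨M, Z, hZn, ?_, ?_, hidx, ?_, ?_, hker⟩
  · exact Subgroup.map_subtype_le _
  · rw [hZ, Subgroup.card_map_of_injective M.subtype_injective, ← hmap,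
      Subgroup.card_map_of_injective e.injective, hcen]
  · obtain ⟨φ⟩ := H8.U62.sub_mod_center_iso (F := H16.F4) (L := L) 0
    have hZM : Z.subgroupOf M = Subgroup.center M := by
      rw [hZ, Subgroup.subgroupOf, Subgroup.comap_map_eq_self_of_injective M.subtype_injective]
    exact ⟨(QuotientGroup.quotientMulEquivOfEq hZM).trans
      ((QuotientGroup.congr _ _ e hmap).symm.trans
        ((QuotientGroup.quotientMulEquivOfEq (H8.U62.center_le_center_sub 0)).trans φ))⟩
  · intro X hX hXp
    haveI := hX
    haveI : Fact (Nat.Prime 2) := ⟨Nat.prime_two⟩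
    have hsimp : IsSimpleGroup (PSU 4 L 3) :=
      S0283.result H8.U62.Setup9.hL 4 (by norm_num) (by omega)
    have hcard : Nat.card (PSU 4 L 3) = 3265920 := by
      obtain ⟨φ⟩ := H8.U62.sub_mod_center_iso (F := H16.F4) (L := L) 0
      rw [← Nat.card_congr φ.toEquiv, ← H8.U62.center_le_center_sub]
      have h := Subgroup.card_eq_card_quotient_mul_card_subgroup
        (Subgroup.center (H8.U62.sub (F := H16.F4) 0))
      rw [H8.U62.card_sub, hcen] at h
      omega
    obtain ⟨φ⟩ := H8.U62.sub_mod_center_iso (F := H16.F4) (L := L) 0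
    let π : M →* PSU 4 L 3 := φ.toMonoidHom.comp
      ((QuotientGroup.mk' ((Subgroup.center (H8.U62.SU6 H16.F4)).subgroupOf (H8.U62.sub 0))).comp
        e.symm.toMonoidHom)
    have hπ : Function.Surjective π :=
      φ.surjective.comp ((QuotientGroup.mk'_surjective _).comp e.symm.surjective)
    have hπk : Nat.card π.ker = 3 := by
      have h := π.ker.card_mul_index
      rw [Subgroup.index_ker, MonoidHom.range_eq_top.2 hπ, Subgroup.card_top, hcard, card_qM] at h
      omega
    -- the part inside the subgroup of index two is trivial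
    have hin : X.subgroupOf M = ⊥ := by
      have hp : IsPGroup 2 (X.subgroupOf M) := hXp.comap_of_injective _ M.subtype_injective
      have hle : X.subgroupOf M ≤ π.ker := by
        rcases hsimp.eq_bot_or_eq_top_of_normal ((X.subgroupOf M).map π)
          (Subgroup.Normal.map inferInstance π hπ) with h | h
        · exact (Subgroup.map_eq_bot_iff _).1 h
        · exfalso
          obtain ⟨n, hn2⟩ := (hp.map π).exists_card_eq
          rw [h, Subgroup.card_top, hcard] at hn2
          have h3 : 3 ∣ 2 ^ n := hn2 ▸ (by norm_num)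
          have := (Nat.prime_dvd_prime_iff_eq Nat.prime_three Nat.prime_two).1
            (Nat.prime_three.dvd_of_dvd_pow h3)
          omega
      obtain ⟨n, hn2⟩ := hp.exists_card_eq
      have hd : 2 ^ n ∣ 3 := hn2 ▸ hπk ▸ Subgroup.card_dvd_of_le hle
      rcases n with - | n
      · exact Subgroup.card_eq_one.1 hn2
      · exfalso
        have : 2 ∣ 3 := dvd_trans (dvd_pow_self 2 (Nat.succ_ne_zero n)) hd
        norm_num at this
    have hdis : Disjoint X M := by
      rw [disjoint_iff, eq_bot_iff]
      intro x hx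
      have : (⟨x, hx.2⟩ : M) ∈ X.subgroupOf M := hx.1
      rw [hin, Subgroup.mem_bot] at this
      exact congrArg Subtype.val this
    refine eq_bot_iff.2 fun x hx => ?_
    have hcomm : ∀ m ∈ M, x * m = m * x := fun m hm =>
      (Subgroup.commute_of_normal_of_disjoint X M hX hn hdis x m hx hm).eq
    by_cases hxM : x ∈ M
    · exact hdis.le_bot ⟨hx, hxM⟩
    · exfalso
      set g : Img := ⟨mu gO, gO, rfl⟩ with hg
      have hgM : g ∉ M := fun h => gO_not_mem H16.F4 h
      have hm : x * g⁻¹ ∈ M :=
        (Subgroup.mul_mem_iff_of_index_two hidx).2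
          (iff_of_false hxM fun h => hgM (M.inv_mem_iff.1 h))
      set o : Img := ⟨omP (F := H16.F4), mSub_le H16.F4 (omP_mem H16.F4)⟩
      have e1 : (x : Equiv.Perm Code) * omP (F := H16.F4) = omP (F := H16.F4) * x :=
        congrArg Subtype.val (hcomm o (omP_mem H16.F4))
      have e2 := omP_comm H16.F4 (m := ((x * g⁻¹ : Img) : Equiv.Perm Code)) hm
      refine gO_not_comm H16.F4 ?_
      have e3 : (g : Equiv.Perm Code) = ((x * g⁻¹ : Img) : Equiv.Perm Code)⁻¹ * x := by
        simp
      show (g : Equiv.Perm Code) * _ = _ * (g : Equiv.Perm Code)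
      rw [e3]
      exact (((show Commute _ (omP (F := H16.F4)) from e2).inv_left).mul_left e1).eq

end Cfsg.Agent.H57.MonsterThree
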