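import Cfsg.Agent.H57.MonsterThree.Perm
import Cfsg.Agent.H18.Monster.HeldLattice
import Cfsg.Agent.H14.Co0Order

/-!
The sublattice fixed by the permutation of type `1^6 3^6` modulo two.
-/

set_option autoImplicit false
set_option maxRecDepth 100000

namespace Cfsg.Agent.H57.MonsterThree

open Cfsg Cfsg.Agent.H14 Finset
open H18.Monster.Held (dot_toVec dot_add_right actL act_matAut isLeech_zsmul)

/-- The twelve coordinates modulo two. -/
abbrev Code : Type := Fin 12 → ZMod 2

/-- A number as a code. -/
def bits (n : ℕ) : Code := fun i => if n.testBit i.val then 1 else 0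

/-- A code as a number. -/
def num (c : Code) : ℕ := Nat.ofBits fun i => decide (c i = 1)

theorem num_lt (c : Code) : num c < 4096 := Nat.ofBits_lt_two_pow _

theorem bits_num (c : Code) : bits (num c) = c := by
  funext i
  rw [bits, num, Nat.testBit_ofBits_lt _ _ i.2]
  have hz : ∀ z : ZMod 2, (if decide (z = 1) = true then (1 : ZMod 2) else 0) = z := by decide
  exact hz _

theorem bits_zero : bits 0 = 0 := by funext i; simp [bits]

theorem bits_xor (a b : ℕ) : bits (a ^^^ b) = bits a + bits b := by
  funext i
  simp only [bits, Pi.add_apply, Nat.testBit_xor]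
  cases a.testBit i.val <;> cases b.testBit i.val <;> decide

theorem bits_two_pow (j : Fin 12) : bits (2 ^ j.val) = fun i => if i = j then 1 else 0 := by
  funext i
  simp only [bits, Nat.testBit_two_pow, decide_eq_true_eq, Fin.val_inj]
  exact if_congr eq_comm rfl rfl

/-- The coordinates modulo two of a vector. -/
noncomputable def code (v : V) : Code := fun i =>
  ((dotInt (H15.toVec (codeRows.getD i.val [])) v / 8 : ℤ) : ZMod 2)

/-- The coordinates modulo two of a list. -/
noncomputable def codeL (l : List ℤ) : Code := fun i =>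
  ((H15.listDot (codeRows.getD i.val []) l / 8 : ℤ) : ZMod 2)

theorem rows_ok :
    (∀ i : Fin 12, H15.leechOk (codeRows.getD i.val []) = true ∧ (codeRows.getD i.val []).length = 24) ∧
    (∀ i : Fin 12, H15.leechOk (dualL.getD i.val []) = true ∧ (dualL.getD i.val []).length = 24) ∧
    (∀ i : Fin 12, H15.leechOk (basL.getD i.val []) = true ∧ (basL.getD i.val []).length = 24) ∧
    ∀ i : Fin 12, H15.leechOk (unitL.getD i.val []) = true ∧ (unitL.getD i.val []).length = 24 := by
  decide +kernel

theorem code_toVec {l : List ℤ} (hl : l.length = 24) : code (H15.toVec l) = codeL l := by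
  funext i
  rw [code, codeL, dot_toVec (rows_ok.1 i).2 hl]

/-- A lattice vector fixed by the permutation. -/
def FixV (v : V) : Prop := IsLeech v ∧ permFun sig v = v

theorem FixV.zero : FixV 0 := ⟨isLeech_zero, rfl⟩

theorem FixV.add {v w : V} (hv : FixV v) (hw : FixV w) : FixV (v + w) :=
  ⟨hv.1.add hw.1, by rw [show permFun sig (v + w) = permFun sig v + permFun sig w from rfl, hv.2, hw.2]⟩

theorem FixV.sub {v w : V} (hv : FixV v) (hw : FixV w) : FixV (v - w) :=
  ⟨hv.1.sub hw.1, by rw [show permFun sig (v - w) = permFun sig v - permFun sig w from rfl, hv.2, hw.2]⟩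

theorem code_add {x y : V} (hx : IsLeech x) (hy : IsLeech y) : code (x + y) = code x + code y := by
  funext i
  have hr := H15.leechOk_spec (rows_ok.1 i).1
  obtain ⟨a, ha⟩ := hr.eight_dvd_dotInt hx
  obtain ⟨b, hb⟩ := hr.eight_dvd_dotInt hy
  simp only [code, Pi.add_apply, dot_add_right, ha, hb, ← mul_add,
    Int.mul_ediv_cancel_left _ (by norm_num : (8 : ℤ) ≠ 0), Int.cast_add]

theorem code_zero : code 0 = 0 := by
  funext i; simp [code, dotInt]

theorem code_two_smul {t : V} (ht : IsLeech t) : code (2 • t) = 0 := by
  rw [two_nsmul, code_add ht ht]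
  funext i
  exact CharTwo.add_self_eq_zero _

theorem code_congr {x y t : V} (hy : IsLeech y) (ht : IsLeech t) (e : x - y = 2 • t) :
    code x = code y := by
  rw [← sub_add_cancel x y, e, code_add (by rw [two_nsmul]; exact ht.add ht) hy, code_two_smul ht,
    zero_add]

theorem code_neg {x : V} (hx : IsLeech x) : code (-x) = code x := by
  refine code_congr hx hx.neg ?_
  rw [two_nsmul]; abel

theorem code_sum {ι : Type} (s : Finset ι) (f : ι → V) (hf : ∀ j, IsLeech (f j)) :
    IsLeech (∑ j ∈ s, f j) ∧ code (∑ j ∈ s, f j) = ∑ j ∈ s, code (f j) := by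
  classical
  induction s using Finset.induction_on with
  | empty => exact ⟨by simpa using isLeech_zero, by simp [code_zero]⟩
  | insert a s ha ih =>
    rw [sum_insert ha, sum_insert ha]
    exact ⟨(hf a).add ih.1, by rw [code_add (hf a) ih.1, ih.2]⟩

theorem code_zsmul {x : V} (hx : IsLeech x) (n : ℤ) : code (n • x) = (n : ZMod 2) • code x := by
  funext i
  obtain ⟨a, ha⟩ := (H15.leechOk_spec (rows_ok.1 i).1).eight_dvd_dotInt hx
  have h1 : dotInt (H15.toVec (codeRows.getD i.val [])) (n • x) =
      8 * (n * a) := by
    rw [← mul_left_comm, ← ha]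
    simp only [dotInt, Pi.smul_apply, smul_eq_mul, mul_sum]
    exact sum_congr rfl fun p _ => by ring
  simp only [code, Pi.smul_apply, smul_eq_mul, h1, ha,
    Int.mul_ediv_cancel_left _ (by norm_num : (8 : ℤ) ≠ 0), Int.cast_mul]

/-- The values of an orbit-constant list at the representatives. -/
noncomputable def atRep (l : List ℤ) (k : Fin 12) : ℤ := l.getD (orbRep.getD k.val 0) 0

/-- The sum of a list over an orbit. -/
noncomputable def orbSum (l : List ℤ) (k : ℕ) : ℤ :=
  ((List.range 24).map fun p => if orbLab.getD p 0 = k then l.getD p 0 else 0).sum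

theorem inverse_table : ∀ k l : Fin 12,
    ((List.finRange 12).map fun i : Fin 12 =>
      atRep (basL.getD i.val []) k * orbSum (dualL.getD i.val []) l.val).sum =
        if k = l then 8 else 0 := by
  decide +kernel

theorem fixed_bas : (∀ (i : Fin 12) (p : GolayPt),
    H15.toVec (basL.getD i.val []) (sig.symm p) = H15.toVec (basL.getD i.val []) p) ∧
    ∀ (i : Fin 12) (p : GolayPt),
    H15.toVec (unitL.getD i.val []) (sig.symm p) = H15.toVec (unitL.getD i.val []) p := by
  decide +kernel

theorem fixV_bas (i : Fin 12) : FixV (H15.toVec (basL.getD i.val [])) :=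
  ⟨H15.leechOk_spec (rows_ok.2.2.1 i).1, funext fun p => fixed_bas.1 i p⟩

theorem fixed_value {w : V} (hw : permFun sig w = w) (p : GolayPt) : w p = w (rep0 (lab p)) := by
  have hinv : ∀ (n : ℕ) p, w ((sig ^ n) p) = w p := by
    intro n
    induction n with
    | zero => intro p; rfl
    | succ n ih =>
      intro p
      rw [pow_succ, Equiv.Perm.mul_apply, ih]
      conv_lhs => rw [← hw]
      exact congrArg w (Equiv.symm_apply_apply sig p)
  conv_lhs => rw [orb_spec p, hinv]

theorem dot_fixed {w : V} (hw : permFun sig w = w) (l : List ℤ) :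
    dotInt (H15.toVec l) w = ∑ k : Fin 12, orbSum l k.val * w (rep0 k) := by
  have e : ∀ k : Fin 12, orbSum l k.val =
      ∑ p : GolayPt, if lab p = k then H15.toVec l p else 0 := by
    intro k
    rw [orbSum, ← List.sum_toFinset _ List.nodup_range, List.toFinset_range,
      ← H15.sum24 fun p => if orbLab.getD p 0 = k.val then l.getD p 0 else 0]
    refine sum_congr rfl fun p _ => ?_
    exact if_congr (by rw [lab, Fin.ext_iff]) rfl rfl
  simp only [e, sum_mul, dotInt]
  rw [sum_comm]
  refine sum_congr rfl fun p _ => ?_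
  rw [Finset.sum_eq_single (lab p)]
  · rw [if_pos rfl, fixed_value hw p]
  · intro k _ hk
    rw [if_neg (Ne.symm hk), zero_mul]
  · simp

/-- A fixed vector is an integral combination of the basis. -/
theorem exists_decomp {v : V} (hv : FixV v) :
    ∃ c : Fin 12 → ℤ, v = ∑ j : Fin 12, c j • H15.toVec (basL.getD j.val []) := by
  have hd : ∀ i : Fin 12, ∃ c, dotInt (H15.toVec (dualL.getD i.val [])) v = 8 * c := fun i =>
    (H15.leechOk_spec (rows_ok.2.1 i).1).eight_dvd_dotInt hv.1
  choose c hc using hd
  refine ⟨c, funext fun p => ?_⟩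
  rw [Finset.sum_apply, fixed_value hv.2 p]
  have hb : ∀ j, H15.toVec (basL.getD (Fin.val j) []) p = atRep (basL.getD (Fin.val (n := 12) j) []) (lab p) := by
    intro j
    rw [fixed_value (fixV_bas j).2 p]
    have hlt : ∀ k : Fin 12, orbRep.getD k.val 0 < 24 := by decide +kernel
    show (basL.getD j.val []).getD (H15.idx (rep0 (lab p))) 0 = _
    rw [show H15.idx (rep0 (lab p)) = orbRep.getD (lab p).val 0 from
      H18.Monster.Held.idx_pt (hlt _)]
    rfl
  simp only [Pi.smul_apply, smul_eq_mul, hb]
  apply mul_left_cancel₀ (show (8 : ℤ) ≠ 0 by norm_num)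
  calc 8 * v (rep0 (lab p))
      = ∑ l : Fin 12, (if lab p = l then 8 else 0) * v (rep0 l) := by simp
    _ = ∑ l : Fin 12, (∑ i : Fin 12, atRep (basL.getD i.val []) (lab p) *
          orbSum (dualL.getD i.val []) l.val) * v (rep0 l) := by
        refine sum_congr rfl fun l _ => ?_
        rw [← inverse_table, ← List.sum_toFinset _ (List.nodup_finRange 12), List.toFinset_finRange]
    _ = ∑ i : Fin 12, atRep (basL.getD i.val []) (lab p) * (8 * c i) := by
        simp only [← hc, dot_fixed hv.2, sum_mul, mul_sum]
        rw [sum_comm]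
        exact sum_congr rfl fun i _ => sum_congr rfl fun l _ => by ring
    _ = 8 * ∑ i : Fin 12, c i * atRep (basL.getD i.val []) (lab p) := by
        rw [mul_sum]
        exact sum_congr rfl fun i _ => by ring

theorem bas_span : ∀ j : Fin 12, (fun i => ((List.finRange 12).map fun k : Fin 12 =>
    bits (unitSel.getD j.val 0) k * codeL (basL.getD k.val []) i).sum) = bits (2 ^ j.val) := by
  decide +kernel

theorem code_bas_ker {b : Code}
    (h : ∀ i : Fin 12, ∑ k : Fin 12, b k * codeL (basL.getD k.val []) i = 0) : b = 0 := by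
  let L : Code → Code := fun b i => ∑ k : Fin 12, b k * codeL (basL.getD k.val []) i
  have hs : Function.Surjective L := by
    intro c
    refine ⟨∑ j : Fin 12, c j • bits (unitSel.getD j.val 0), funext fun i => ?_⟩
    simp only [L, Finset.sum_apply, Pi.smul_apply, smul_eq_mul, sum_mul]
    rw [sum_comm]
    have e : ∀ j : Fin 12, ∑ k : Fin 12, bits (unitSel.getD j.val 0) k * codeL (basL.getD k.val []) i =
        if i = j then 1 else 0 := fun j => by
      have := congrFun (bas_span j) i
      rw [bits_two_pow] at this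
      dsimp only at this
      rw [← this, ← List.sum_toFinset _ (List.nodup_finRange 12), List.toFinset_finRange]
    calc ∑ j : Fin 12, ∑ k : Fin 12, c j * bits (unitSel.getD j.val 0) k * codeL (basL.getD k.val []) i
        = ∑ j : Fin 12, c j * if i = j then 1 else 0 := by
          refine sum_congr rfl fun j _ => ?_
          rw [← e j, mul_sum]
          exact sum_congr rfl fun k _ => mul_assoc _ _ _
      _ = c i := by simp
  have hi := Finite.injective_iff_surjective.2 hs
  exact hi (show L b = L 0 from funext fun i => by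
    simp only [L, h i, Pi.zero_apply, zero_mul, Finset.sum_const_zero])

/-- A fixed vector with trivial code is twice a lattice vector. -/
theorem two_dvd_of_code {v : V} (hv : FixV v) (h : code v = 0) :
    ∃ t, IsLeech t ∧ v = 2 • t := by
  obtain ⟨c, rfl⟩ := exists_decomp hv
  have hl : ∀ j : Fin 12, IsLeech (H15.toVec (basL.getD j.val [])) := fun j => (fixV_bas j).1
  rw [(code_sum univ _ fun j => isLeech_zsmul (hl j) (c j)).2] at h
  have h2 : (fun j => ((c j : ℤ) : ZMod 2)) = (0 : Code) := code_bas_ker fun i => by
    have := congrFun h i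
    simp only [Finset.sum_apply, code_zsmul (hl _), Pi.smul_apply, smul_eq_mul, Pi.zero_apply] at this
    simpa only [code_toVec (rows_ok.2.2.1 _).2] using this
  have h3 : ∀ j, ∃ d, c j = 2 * d := fun j =>
    (ZMod.intCast_zmod_eq_zero_iff_dvd (c j) 2).1 (congrFun h2 j)
  choose d hd using h3
  refine ⟨∑ j : Fin 12, d j • H15.toVec (basL.getD j.val []),
    (code_sum univ _ fun j => isLeech_zsmul (hl j) (d j)).1, ?_⟩
  rw [Finset.smul_sum]
  refine sum_congr rfl fun j _ => ?_
  rw [hd j, mul_smul, two_nsmul, two_smul]

/-- Fixed vectors with one code are congruent. -/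
theorem congr_of_code {v w : V} (hv : FixV v) (hw : FixV w) (h : code v = code w) :
    ∃ t, IsLeech t ∧ v - w = 2 • t := by
  refine two_dvd_of_code (hv.sub hw) ?_
  have h1 := code_add (hv.1.sub hw.1) hw.1
  rw [sub_add_cancel, h] at h1
  exact right_eq_add.1 h1

/-- A vector with a unit code. -/
noncomputable def unitV (j : Fin 12) : V := H15.toVec (unitL.getD j.val [])

theorem fixV_unitV (j : Fin 12) : FixV (unitV j) :=
  ⟨H15.leechOk_spec (rows_ok.2.2.2 j).1, funext fun p => fixed_bas.2 j p⟩

theorem code_unitL : ∀ j : Fin 12, codeL (unitL.getD j.val []) = bits (2 ^ j.val) := by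
  decide +kernel

theorem code_unitV (j : Fin 12) : code (unitV j) = fun i => if i = j then 1 else 0 := by
  rw [unitV, code_toVec (rows_ok.2.2.2 j).2, code_unitL, bits_two_pow]

/-- The standard vector of a code. -/
noncomputable def repV (c : Code) : V := ∑ j, if c j = 1 then unitV j else 0

theorem fixV_repV (c : Code) : FixV (repV c) := by
  refine Finset.sum_induction _ FixV (fun _ _ => FixV.add) FixV.zero fun j _ => ?_
  split
  exacts [fixV_unitV j, FixV.zero]

theorem code_repV (c : Code) : code (repV c) = c := by
  rw [repV, (code_sum _ _ fun j => by split; exacts [(fixV_unitV j).1, isLeech_zero]).2]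
  have hz : ∀ z : ZMod 2, (if z = 1 then (1 : ZMod 2) else 0) = z := by decide
  funext i
  rw [Finset.sum_apply, Finset.sum_eq_single i]
  · conv_rhs => rw [← hz (c i)]
    split
    · rw [code_unitV]; simp
    · rw [code_zero]; rfl
  · intro j _ hj
    split
    · rw [code_unitV]; simp [Ne.symm hj]
    · rw [code_zero]; rfl
  · simp

theorem act_zero (k : Co0) : act k (0 : V) = 0 := by
  have := act_add k isLeech_zero isLeech_zero
  rwa [add_zero, left_eq_add] at this

theorem act_sum (k : Co0) {ι : Type} (s : Finset ι) (f : ι → V) (hf : ∀ j, IsLeech (f j)) :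
    act k (∑ j ∈ s, f j) = ∑ j ∈ s, act k (f j) := by
  classical
  induction s using Finset.induction_on with
  | empty => simp [act_zero]
  | insert a s ha ih =>
    rw [sum_insert ha, sum_insert ha, act_add k (hf a) (code_sum s f hf).1, ih]

theorem code_act_congr (k : Co0) {v w : V} (hv : FixV v) (hw : FixV w) (h : code v = code w) :
    code (act k v) = code (act k w) := by
  obtain ⟨t, ht, e⟩ := congr_of_code hv hw h
  exact code_congr (isLeech_act k hw.1) (isLeech_act k ht)
    (by rw [← act_sub k hv.1 hw.1, e, act_two_smul k ht])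

/-- The code of an image is linear in the code. -/
theorem code_act_linear (k : Co0) {v : V} (hv : FixV v) :
    code (act k v) = ∑ j, code v j • code (act k (unitV j)) := by
  rw [code_act_congr k hv (fixV_repV (code v)) (code_repV _).symm, repV]
  have hL : ∀ j, IsLeech (if code v j = 1 then unitV j else 0) := fun j => by
    split; exacts [(fixV_unitV j).1, isLeech_zero]
  rw [act_sum k _ _ hL, (code_sum _ _ fun j => isLeech_act k (hL j)).2]
  refine sum_congr rfl fun j _ => ?_
  rcases (by decide : ∀ z : ZMod 2, z = 0 ∨ z = 1) (code v j) with z | z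
  · rw [z, zero_smul, if_neg (by decide), act_zero, code_zero]
  · rw [z, one_smul, if_pos rfl]

/-! ### The bilinear form -/

/-- Half the inner product with a unit vector, modulo two. -/
noncomputable def pairU (j : Fin 12) (v : V) : ZMod 2 := ((dotInt (unitV j) v / 8 : ℤ) : ZMod 2)

theorem pairU_add (j : Fin 12) {x y : V} (hx : IsLeech x) (hy : IsLeech y) :
    pairU j (x + y) = pairU j x + pairU j y := by
  obtain ⟨a, ha⟩ := (fixV_unitV j).1.eight_dvd_dotInt hx
  obtain ⟨b, hb⟩ := (fixV_unitV j).1.eight_dvd_dotInt hy
  simp only [pairU, dot_add_right, ha, hb, ← mul_add,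
    Int.mul_ediv_cancel_left _ (by norm_num : (8 : ℤ) ≠ 0), Int.cast_add]

theorem pairU_sum (j : Fin 12) {ι : Type} (s : Finset ι) (f : ι → V) (hf : ∀ j, IsLeech (f j)) :
    pairU j (∑ i ∈ s, f i) = ∑ i ∈ s, pairU j (f i) := by
  classical
  induction s using Finset.induction_on with
  | empty => simp [pairU, dotInt]
  | insert a s ha ih =>
    rw [sum_insert ha, sum_insert ha, pairU_add j (hf a) (code_sum s f hf).1, ih]

theorem pairU_linear (j : Fin 12) {v : V} (hv : FixV v) :
    pairU j v = ∑ i, code v i * pairU j (unitV i) := by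
  obtain ⟨t, ht, e⟩ := congr_of_code hv (fixV_repV (code v)) (code_repV _).symm
  have h2 : pairU j v = pairU j (repV (code v)) := by
    conv_lhs => rw [← sub_add_cancel v (repV (code v)), e, two_nsmul]
    rw [pairU_add j (ht.add ht) (fixV_repV _).1, pairU_add j ht ht, CharTwo.add_self_eq_zero, zero_add]
  have hL : ∀ i, IsLeech (if code v i = 1 then unitV i else 0) := fun i => by
    split; exacts [(fixV_unitV i).1, isLeech_zero]
  rw [h2, repV, pairU_sum j _ _ hL]
  refine sum_congr rfl fun i _ => ?_
  rcases (by decide : ∀ z : ZMod 2, z = 0 ∨ z = 1) (code v i) with z | z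
  · rw [z, zero_mul, if_neg (by decide)]; simp [pairU, dotInt]
  · rw [z, one_mul, if_pos rfl]

theorem gram_inverse : ∀ i l : Fin 12, ((List.finRange 12).map fun j : Fin 12 =>
    bits (gramI.getD j.val 0) i *
      ((H15.listDot (unitL.getD j.val []) (unitL.getD l.val []) / 8 : ℤ) : ZMod 2)).sum =
        if i = l then 1 else 0 := by
  decide +kernel

/-- The form is nondegenerate on the codes. -/
theorem code_eq_zero_of_pairing {v : V} (hv : FixV v)
    (h : ∀ j : Fin 12, (16 : ℤ) ∣ dotInt (unitV j) v) : code v = 0 := by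
  have hz : ∀ j, pairU j v = 0 := fun j => by
    obtain ⟨a, ha⟩ := h j
    rw [pairU, ha, show (16 : ℤ) * a = 8 * (2 * a) by ring,
      Int.mul_ediv_cancel_left _ (by norm_num : (8 : ℤ) ≠ 0)]
    exact (ZMod.intCast_zmod_eq_zero_iff_dvd _ 2).2 (dvd_mul_right _ _)
  funext i
  calc code v i = ∑ l : Fin 12, (∑ j : Fin 12, bits (gramI.getD j.val 0) i * pairU j (unitV l)) *
        code v l := by
        have e : ∀ l : Fin 12, ∑ j : Fin 12, bits (gramI.getD j.val 0) i * pairU j (unitV l) =
            if i = l then 1 else 0 := fun l => by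
          rw [← gram_inverse, ← List.sum_toFinset _ (List.nodup_finRange 12), List.toFinset_finRange]
          refine sum_congr rfl fun j _ => ?_
          rw [pairU, unitV, unitV, dot_toVec (rows_ok.2.2.2 j).2 (rows_ok.2.2.2 l).2]
        simp only [e, ite_mul, one_mul, zero_mul, Finset.sum_ite_eq, mem_univ, if_true]
    _ = ∑ j : Fin 12, bits (gramI.getD j.val 0) i * pairU j v := by
        simp only [pairU_linear _ hv, sum_mul, mul_sum]
        rw [sum_comm]
        exact sum_congr rfl fun j _ => sum_congr rfl fun l _ => by ring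
    _ = 0 := by simp [hz]

end Cfsg.Agent.H57.MonsterThree
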