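import Cfsg.Agent.H57.MonsterThree.Fusion
import Cfsg.Agent.H18.Monster.HeldSylow
import Cfsg.Agent.H19.Cores
import Cfsg.Agent.H73.CharPLocal

/-!
In a group of Monster type the centralizer of a suitable element of order three, modulo that element,
is of large Fischer type.
-/

set_option autoImplicit false

namespace Cfsg.Agent.H57.MonsterThree

open Cfsg.Agent.H14
open H18.Monster.Data (gv gv_injective)

theorem sigA_mem_K (m : ℕ) : sigA ^ m ∈ K := pow_mem (mem_K.2 rfl) m

theorem mu_sigA_pow (m : ℕ) : mu ⟨sigA ^ m, sigA_mem_K m⟩ = 1 := by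
  refine Equiv.ext fun c => ?_
  show code (act (sigA ^ m) (repV c)) = c
  rw [act_sigA_pow (fixV_repV c).1]
  have h : permFun (sig ^ m) (repV c) = repV c := by
    induction m with
    | zero => rfl
    | succ m ih =>
      rw [pow_succ']
      show permFun sig (permFun (sig ^ m) (repV c)) = _
      rw [ih, (fixV_repV c).2]
  rw [h, code_repV]

/-- The kernel of the action. -/
theorem ker_mu {k : K} (h : mu k = 1) :
    ∃ m : ℕ, (k : Co0) = sigA ^ m ∨ (k : Co0) = negOne * sigA ^ m := by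
  letI : H8.U62.Setup H16.F4 := setupF4
  have hc := (index_qM H16.F4).2
  have e : Subgroup.zpowers negSig = mu.ker := by
    refine Subgroup.eq_of_le_of_card_ge (by rw [Subgroup.zpowers_le]; exact mu_negSig) ?_
    rw [Nat.card_zpowers, orderOf_negSig, hc]
  have hk : k ∈ Subgroup.zpowers negSig := by rw [e]; exact h
  obtain ⟨n, hn⟩ := (isOfFinOrder_of_finite negSig).mem_powers_iff_mem_zpowers.2 hk
  refine ⟨n, ?_⟩
  have hn' : (sigA * negOne) ^ n = (k : Co0) := congrArg Subtype.val hn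
  rw [(show Commute sigA negOne from negOne_comm sigA).mul_pow] at hn'
  rcases Nat.even_or_odd' n with ⟨r, hr | hr⟩
  · left
    rw [← hn', hr, pow_mul negOne, pow_two negOne, negOne_sq, one_pow, mul_one]
  · right
    rw [← hn', hr, pow_succ negOne, pow_mul negOne, pow_two negOne, negOne_sq, one_pow, one_mul,
      negOne_comm]

namespace Three

variable {G : Type*} [Group G] [Finite G] {z : G}
  {Q : Subgroup (Subgroup.centralizer ({z} : Set G))} [Q.Normal]
  {D : H18.Monster.Data z Q} {b : G} (S : Three D b)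
include S

variable [hn : ((Subgroup.zpowers b).subgroupOf
  (Subgroup.centralizer ((Subgroup.zpowers b : Subgroup G) : Set G))).Normal]

/-! ### The map onto the image -/

theorem exists_k (a : cen b z) : ∃ k : Co0, k ∈ K ∧
    (QuotientGroup.mk k : Cfsg.Spor.Co1) =
      D.e (QuotientGroup.mk (⟨(a : G), a.2.1⟩ : Subgroup.centralizer ({z} : Set G))) := by
  obtain ⟨k, hk⟩ := QuotientGroup.mk_surjective
    (D.e (QuotientGroup.mk (⟨(a : G), a.2.1⟩ : Subgroup.centralizer ({z} : Set G))))
  refine ⟨k, ?_, hk⟩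
  have hcomm : (QuotientGroup.mk (k * sigA) : Cfsg.Spor.Co1) = QuotientGroup.mk (sigA * k) := by
    rw [QuotientGroup.mk_mul, QuotientGroup.mk_mul, hk, ← S.hb, ← map_mul, ← map_mul,
      ← QuotientGroup.mk_mul, ← QuotientGroup.mk_mul]
    exact congrArg (fun c => D.e (QuotientGroup.mk c)) (Subtype.ext
      (Subgroup.mem_centralizer_singleton_iff.1 a.2.2))
  rw [QuotientGroup.eq, mem_center_iff] at hcomm
  rw [mem_K]
  rcases hcomm with e | e
  · exact inv_mul_eq_one.1 e
  · exfalso
    exact sigA_not_negated (k := k) (inv_mul_eq_iff_eq_mul.1 e)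

/-- The lattice automorphism of an element. -/
noncomputable def kOf (a : cen b z) : K := ⟨(S.exists_k a).choose, (S.exists_k a).choose_spec.1⟩

theorem kOf_spec (a : cen b z) : (QuotientGroup.mk (S.kOf a : Co0) : Cfsg.Spor.Co1) =
    D.e (QuotientGroup.mk (⟨(a : G), a.2.1⟩ : Subgroup.centralizer ({z} : Set G))) :=
  (S.exists_k a).choose_spec.2

/-- The map onto the image. -/
noncomputable def toImg : cen b z →* Img :=
  MonoidHom.mk' (fun a => mu.rangeRestrict (S.kOf a)) fun a c => by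
    rw [← map_mul]
    refine Subtype.ext ?_
    refine mu_eq_of_mk (k := S.kOf (a * c)) (l := S.kOf a * S.kOf c) ?_
    rw [S.kOf_spec]
    show _ = (QuotientGroup.mk ((S.kOf a : Co0) * (S.kOf c : Co0)) : Cfsg.Spor.Co1)
    rw [QuotientGroup.mk_mul, S.kOf_spec, S.kOf_spec, ← map_mul]
    rfl

theorem toImg_eq {a : cen b z} {k : K} (h : (QuotientGroup.mk (k : Co0) : Cfsg.Spor.Co1) =
    D.e (QuotientGroup.mk (⟨(a : G), a.2.1⟩ : Subgroup.centralizer ({z} : Set G)))) :
    S.toImg a = mu.rangeRestrict k :=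
  Subtype.ext (mu_eq_of_mk (by rw [S.kOf_spec, h]))

theorem toImg_surjective : Function.Surjective S.toImg := by
  intro m
  obtain ⟨k, rfl⟩ := mu.rangeRestrict_surjective m
  obtain ⟨c, hc⟩ := QuotientGroup.mk_surjective (D.e.symm (QuotientGroup.mk (k : Co0)))
  have hck : D.e (QuotientGroup.mk c) = (QuotientGroup.mk (k : Co0) : Cfsg.Spor.Co1) := by
    rw [hc, MulEquiv.apply_symm_apply]
  have hconj : (QuotientGroup.mk (c * S.bC * c⁻¹) :
      Subgroup.centralizer ({z} : Set G) ⧸ Q) = QuotientGroup.mk S.bC := by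
    apply D.e.injective
    rw [QuotientGroup.mk_mul, QuotientGroup.mk_mul, QuotientGroup.mk_inv, map_mul, map_mul, map_inv,
      hck, S.hb, ← QuotientGroup.mk_inv, ← QuotientGroup.mk_mul, ← QuotientGroup.mk_mul,
      mem_K.1 k.2, mul_inv_cancel_right]
  obtain ⟨u, hu, e⟩ := conj_lift_three Q D.hset.2.2.2.1 S.orderC
    (y := c * S.bC * c⁻¹) (by
      show orderOf (MulAut.conj c S.bC) = 3
      rw [MulEquiv.orderOf_eq, S.orderC]) hconj
  set a := u * c with ha
  have hab : (a : G) * b = b * a := by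
    have e' : a * S.bC * a⁻¹ = S.bC := by
      conv_rhs => rw [← e]
      rw [ha]; group
    exact congrArg Subtype.val (mul_inv_eq_iff_eq_mul.1 e')
  refine ⟨⟨a, a.2, Subgroup.mem_centralizer_singleton_iff.2 hab⟩, S.toImg_eq ?_⟩
  show _ = D.e (QuotientGroup.mk a)
  rw [ha, QuotientGroup.mk_mul, (QuotientGroup.eq_one_iff u).2 hu, one_mul, hck]

theorem toImg_eq_one_iff (a : cen b z) :
    S.toImg a = 1 ↔ ∃ m : ℕ, (b ^ m)⁻¹ * (a : G) ∈ D.F := by
  have hbm : ∀ m : ℕ, (QuotientGroup.mk (sigA ^ m) : Cfsg.Spor.Co1) =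
      D.e (QuotientGroup.mk (S.bC ^ m)) := fun m => by
    rw [QuotientGroup.mk_pow, QuotientGroup.mk_pow, _root_.map_pow, S.hb]
  constructor
  · intro h
    obtain ⟨m, hm⟩ := ker_mu (show mu (S.kOf a) = 1 from congrArg Subtype.val h)
    refine ⟨m, ?_⟩
    have e : (QuotientGroup.mk (S.kOf a : Co0) : Cfsg.Spor.Co1) = QuotientGroup.mk (sigA ^ m) := by
      rcases hm with e | e <;> rw [e]
      rw [QuotientGroup.mk_mul, (QuotientGroup.eq_one_iff _).2 negOne_mem_center, one_mul]
    rw [S.kOf_spec, hbm] at e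
    exact ⟨_, QuotientGroup.eq.1 (D.e.injective e).symm, rfl⟩
  · rintro ⟨m, q, hq, e⟩
    rw [S.toImg_eq (k := ⟨sigA ^ m, pow_mem (mem_K.2 rfl) m⟩) ?_]
    · exact Subtype.ext (mu_sigA_pow m)
    · rw [hbm]
      congr 1
      rw [QuotientGroup.eq]
      have : (S.bC ^ m)⁻¹ * (⟨(a : G), a.2.1⟩ : Subgroup.centralizer ({z} : Set G)) = q :=
        Subtype.ext e.symm
      rw [this]; exact hq

theorem ker_proj_le : S.proj.ker ≤ S.toImg.ker := by
  intro a ha
  rw [S.mem_ker_proj] at ha
  obtain ⟨j, hj⟩ := (isOfFinOrder_of_finite b).mem_powers_iff_mem_zpowers.2 ha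
  rw [MonoidHom.mem_ker, S.toImg_eq_one_iff]
  exact ⟨j, by rw [show b ^ j = (a : G) from hj, inv_mul_cancel]; exact D.F.one_mem⟩

/-- The map on the centralizer of the image of `z`. -/
noncomputable def gamma :
    Subgroup.centralizer ({S.zbar} : Set (NQ b)) →* Img :=
  MonoidHom.liftOfSurjective S.proj S.proj_surjective ⟨S.toImg, S.ker_proj_le⟩

theorem gamma_proj (a : cen b z) : S.gamma (S.proj a) = S.toImg a :=
  MonoidHom.liftOfRightInverse_comp_apply _ _ _ _ a

theorem gamma_surjective : Function.Surjective S.gamma := fun m => by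
  obtain ⟨a, rfl⟩ := S.toImg_surjective m
  exact ⟨S.proj a, S.gamma_proj a⟩

theorem gamma_ker : S.R = S.gamma.ker := by
  ext x
  obtain ⟨a, rfl⟩ := S.proj_surjective x
  rw [MonoidHom.mem_ker, S.gamma_proj, S.toImg_eq_one_iff]
  constructor
  · rintro ⟨r, hr, e⟩
    rw [S.proj_eq_iff] at e
    obtain ⟨j, hj⟩ := (isOfFinOrder_of_finite b).mem_powers_iff_mem_zpowers.2 e
    refine ⟨j, ?_⟩
    have hj' : b ^ j = (r : G)⁻¹ * a := hj
    have hrb : Commute (r : G) (b ^ j) :=
      (show Commute (r : G) b from Subgroup.mem_centralizer_singleton_iff.1 r.2.2).pow_right j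
    have ha : (a : G) = b ^ j * r := by rw [← hrb.eq, hj', mul_inv_cancel_left]
    rw [ha, inv_mul_cancel_left]
    exact hr
  · rintro ⟨m, hm⟩
    have hbz : b ∈ cen b z :=
      ⟨Subgroup.mem_centralizer_singleton_iff.2 S.hzb, Subgroup.mem_centralizer_singleton_iff.2 rfl⟩
    refine ⟨(⟨b, hbz⟩ ^ m)⁻¹ * a, hm, ?_⟩
    rw [S.proj_eq_iff]
    have hcomm : Commute (a : G) (b ^ m) :=
      (show Commute (a : G) b from Subgroup.mem_centralizer_singleton_iff.1 a.2.2).pow_right m
    show ((b ^ m)⁻¹ * (a : G))⁻¹ * a ∈ _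
    rw [mul_inv_rev, inv_inv, mul_assoc, ← hcomm.eq, inv_mul_cancel_left]
    exact Subgroup.npow_mem_zpowers b m

theorem R_normal : S.R.Normal := S.gamma_ker ▸ inferInstance

theorem centralizer_R_le : Subgroup.centralizer (S.R : Set _) ≤ S.R := by
  intro x hx
  obtain ⟨a, rfl⟩ := S.proj_surjective x
  rw [S.gamma_ker, MonoidHom.mem_ker, S.gamma_proj]
  apply Subtype.ext
  refine Equiv.ext fun c => ?_
  show muFun (S.kOf a : Co0) c = c
  set r := S.sec c with hr
  set r' : S.qFix := ⟨a * (r : cen b z) * a⁻¹, by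
    show (a : G) * ((r : cen b z) : G) * (a : G)⁻¹ ∈ D.F
    rw [← S.gv_qOf r]
    exact ⟨⟨(a : G), a.2.1⟩ * S.qOf r * (⟨(a : G), a.2.1⟩ : Subgroup.centralizer ({z} : Set G))⁻¹,
      (inferInstance : Q.Normal).conj_mem _ (S.qOf r).2 _, rfl⟩⟩
  have hrr : r' = r := by
    refine S.proj_inj ?_
    have h := hx _ ⟨(r : cen b z), r.2, rfl⟩
    show S.proj (a * (r : cen b z) * a⁻¹) = _
    rw [map_mul, map_mul, map_inv, mul_inv_eq_iff_eq_mul]
    exact h.symm
  have hq : (QuotientGroup.mk (S.qOf r) : Q ⧸ Subgroup.center Q) =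
      D.mod.cls (repV c) := by
    rw [hr, sec, S.qOf_mkFix, D.mod.mk_rep]
  have hcls := D.cls_conj _ _ (S.kOf_spec a) (fixV_repV _).1 (S.qOf r) hq
  have hq' : (QuotientGroup.mk (S.qOf r') : Q ⧸ Subgroup.center Q) =
      D.mod.cls (act (S.kOf a : Co0) (repV c)) := by
    rw [hcls]
    congr 1
    apply gv_injective
    rw [S.gv_qOf]
    show (a : G) * ((r : cen b z) : G) * (a : G)⁻¹ = (a : G) * gv (S.qOf r) * (a : G)⁻¹
    rw [S.gv_qOf]
  rw [hrr, hq] at hq'
  have hcode := S.code_unique (fixV_repV _) (fixV_actK (S.kOf a).2 (fixV_repV _)) hq'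
  show code (act _ _) = c
  rw [← hcode, code_repV]

theorem pCore_eq_R : Cfsg.pCore 2 (Subgroup.centralizer ({S.zbar} : Set (NQ b))) = S.R := by
  haveI : Fact (Nat.Prime 2) := ⟨Nat.prime_two⟩
  letI : H8.U62.Setup H16.F4 := setupF4
  haveI : Finite (GaloisField 3 2) := inferInstance
  letI : Fintype (GaloisField 3 2) := Fintype.ofFinite _
  have h9 : Fintype.card (GaloisField 3 2) = 9 := by
    rw [← Nat.card_eq_fintype_card, GaloisField.card 3 2 (by norm_num)]; norm_num
  obtain ⟨im, him⟩ := H8.U62.exists_im h9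
  letI : H8.U62.Setup9 (GaloisField 3 2) :=
    { (inferInstance : Field (GaloisField 3 2)) with
      im := im
      him := him
      fin := inferInstance
      card := h9 }
  obtain ⟨-, -, -, -, -, -, -, hO2, -⟩ := image_structure (GaloisField 3 2)
  haveI := H19.pCore_normal 2 (Subgroup.centralizer ({S.zbar} : Set (NQ b)))
  refine le_antisymm ?_ (H19.le_pCore S.R_normal ((IsPGroup.of_card S.card_qFix).map _))
  rw [S.gamma_ker, ← Subgroup.map_eq_bot_iff]
  exact hO2 _ (Subgroup.Normal.map inferInstance _ S.gamma_surjective)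
    ((H19.pCore_isPGroup 2).map _)

theorem card_R : Nat.card S.R = 2 ^ 13 :=
  (Nat.card_congr S.equivR.toEquiv).symm.trans (by rw [S.card_qFix])

/-- The hypotheses on the second conjugate. -/
theorem setting {q : Q} (hq : (QuotientGroup.mk q : Q ⧸ Subgroup.center Q) = D.mod.cls (eight oo))
    (h1 : IsConj z (gv q)) (h2 : gv q ≠ z)
    (hbL : b ∈ Subgroup.centralizer ({z, gv q} : Set G))
    (P : Sylow 3 (Subgroup.centralizer ({z, gv q} : Set G)))
    (hb : ∃ hm : (⟨b, hbL⟩ : Subgroup.centralizer ({z, gv q} : Set G)) ∈ (P : Subgroup _),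
      (⟨_, hm⟩ : (P : Subgroup (Subgroup.centralizer ({z, gv q} : Set G)))) ∈ Subgroup.center _) :
    Cfsg.IsExtraspecialCentralizerSetting S.zbar S.R 6 := by
  haveI : Fact (Nat.Prime 2) := ⟨Nat.prime_two⟩
  refine ⟨?_, ?_, H18.extraspecial_of_equiv S.equivR S.qFix_extraspecial, S.card_R, ?_⟩
  · refine orderOf_eq_prime ?_ ?_
    · rw [pow_two, zbar_def, ← QuotientGroup.mk_mul, QuotientGroup.eq_one_iff, Subgroup.mem_subgroupOf]
      show z * z ∈ _
      rw [D.z_sq]; exact Subgroup.one_mem _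
    · rw [zbar_def]
      intro e
      rw [QuotientGroup.eq_one_iff, Subgroup.mem_subgroupOf] at e
      exact D.z_ne_one (S.pow_two_eq S.hzb.symm (by rw [pow_two, D.z_sq]) e)
  · rw [(H73.charP_iff_generalizedFitting (p := 2)).1 (by
      rw [S.pCore_eq_R]; exact S.centralizer_R_le), S.pCore_eq_R]
  · have hqb : gv q * b = b * gv q := ((mem_pair.1 hbL).2).symm
    set r := S.mkFix hqb with hr
    have hx : gv (S.qOf r) = gv q := by rw [hr, S.qOf_mkFix]
    obtain ⟨c, hcb, hc⟩ := S.conj_mul_z hx h1 h2 hbL P hb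
    refine ⟨QuotientGroup.mk ⟨c, mem_cent.2 hcb⟩, ?_, ?_⟩
    · have e : (QuotientGroup.mk (⟨c, mem_cent.2 hcb⟩ : Subgroup.centralizer
          ((Subgroup.zpowers b : Subgroup G) : Set G)) : NQ b) * S.zbar *
          (QuotientGroup.mk (⟨c, mem_cent.2 hcb⟩ : Subgroup.centralizer
          ((Subgroup.zpowers b : Subgroup G) : Set G)) : NQ b)⁻¹ =
          (S.proj ((S.zF * r : S.qFix) : cen b z) :
            Subgroup.centralizer ({S.zbar} : Set (NQ b))) := by
        show (QuotientGroup.mk _ : NQ b) = QuotientGroup.mk _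
        congr 1
        exact Subtype.ext hc
      rw [e]
      exact ⟨(S.proj _).2, ⟨_, (S.zF * r).2, rfl⟩⟩
    · intro e
      have e' : S.zF * r = S.zF := S.proj_inj (Subtype.ext (by
        show (QuotientGroup.mk _ : NQ b) = QuotientGroup.mk _
        refine Eq.trans ?_ e
        congr 1
        exact Subtype.ext hc.symm))
      have hr1 : r = 1 := mul_eq_left.1 e'
      have hq1 : gv q = 1 := by
        rw [← hx, hr1]; exact (S.gv_qOf 1)
      obtain ⟨a, ha⟩ := isConj_iff.1 h1
      rw [hq1] at ha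
      exact D.z_ne_one (conj_eq_one_iff.1 ha)

/-- The centralizer modulo the element is of large Fischer type. -/
theorem largeFischerType {q : Q}
    (hq : (QuotientGroup.mk q : Q ⧸ Subgroup.center Q) = D.mod.cls (eight oo))
    (h1 : IsConj z (gv q)) (h2 : gv q ≠ z)
    (hbL : b ∈ Subgroup.centralizer ({z, gv q} : Set G))
    (P : Sylow 3 (Subgroup.centralizer ({z, gv q} : Set G)))
    (hb : ∃ hm : (⟨b, hbL⟩ : Subgroup.centralizer ({z, gv q} : Set G)) ∈ (P : Subgroup _),
      (⟨_, hm⟩ : (P : Subgroup (Subgroup.centralizer ({z, gv q} : Set G)))) ∈ Subgroup.center _) :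
    Cfsg.IsOfLargeFischerType (NQ b) := by
  letI : H8.U62.Setup H16.F4 := setupF4
  letI : Fintype (GaloisField 3 2) := Fintype.ofFinite _
  have h9 : Fintype.card (GaloisField 3 2) = 9 := by
    rw [← Nat.card_eq_fintype_card, GaloisField.card 3 2 (by norm_num)]; norm_num
  obtain ⟨im, him⟩ := H8.U62.exists_im h9
  let i9 : H8.U62.Setup9 (GaloisField 3 2) :=
    { (inferInstance : Field (GaloisField 3 2)) with
      im := im
      him := him
      fin := inferInstance
      card := h9 }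
  obtain ⟨M, Z, hZn, hZM, hZ3, hMi, ⟨φ⟩, -, -⟩ := @image_structure (GaloisField 3 2) i9
  haveI := S.R_normal
  haveI hMn : M.Normal := Subgroup.normal_of_index_eq_two hMi
  set N' := Z.comap S.gamma with hN'
  set M' := M.comap S.gamma with hM'
  haveI : N'.Normal := Subgroup.Normal.comap hZn _
  haveI : M'.Normal := Subgroup.Normal.comap hMn _
  refine ⟨S.zbar, S.R, S.R_normal, S.setting hq h1 h2 hbL P hb, N', M', inferInstance, inferInstance,
    ?_, Subgroup.comap_mono hZM, ?_, ⟨GaloisField 3 2, inferInstance, inferInstance, h9, ?_⟩, ?_⟩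
  · rw [S.gamma_ker, hN']
    exact fun x hx => by
      show S.gamma x ∈ Z
      rw [MonoidHom.mem_ker.1 hx]; exact Z.one_mem
  · have e1 := Subgroup.card_mul_index N'
    rw [hN', Subgroup.index_comap_of_surjective _ S.gamma_surjective] at e1
    have e2 := S.gamma.ker.card_mul_index
    rw [Subgroup.index_ker, MonoidHom.range_eq_top.2 S.gamma_surjective, Subgroup.card_top,
      ← Z.card_mul_index, hZ3, ← S.gamma_ker] at e2
    rw [← e2, ← mul_assoc, mul_comm (Nat.card S.R)] at e1
    exact Nat.eq_of_mul_eq_mul_right (Nat.pos_of_ne_zero Subgroup.index_ne_zero_of_finite) e1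
  · let f : M' →* M ⧸ Z.subgroupOf M :=
      (QuotientGroup.mk' _).comp ((S.gamma.comp M'.subtype).codRestrict M fun x => x.2)
    have hf : Function.Surjective f := by
      intro y
      obtain ⟨⟨m, hm⟩, rfl⟩ := QuotientGroup.mk'_surjective _ y
      obtain ⟨x, rfl⟩ := S.gamma_surjective m
      exact ⟨⟨x, hm⟩, rfl⟩
    have hk : N'.subgroupOf M' = f.ker := by
      ext x
      rw [MonoidHom.mem_ker]
      exact (QuotientGroup.eq_one_iff (N := Z.subgroupOf M)
        (((S.gamma.comp M'.subtype).codRestrict M fun x => x.2) x)).symm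
    exact ⟨(QuotientGroup.quotientMulEquivOfEq hk).trans
      ((QuotientGroup.quotientKerEquivOfSurjective f hf).trans φ)⟩
  · rw [hM', Subgroup.index_comap_of_surjective _ S.gamma_surjective, hMi]

end Three

end Cfsg.Agent.H57.MonsterThree
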