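import Cfsg.Agent.H57.MonsterThree.Lattice
import Cfsg.Agent.H8.U62.Check

/-!
Checks on the matrices commuting with the permutation of type `1^6 3^6`.
-/

set_option autoImplicit false
set_option maxRecDepth 100000

namespace Cfsg.Agent.H57.MonsterThree

open Cfsg Cfsg.Agent.H14
open H18.Monster.Held (actL)
open H8.U62 (mvC)

/-- Test that a matrix commutes with the permutation. -/
noncomputable def commTest (M : H15.Mat) : Bool :=
  H15.allBelow (fun i => H15.allBelow (fun j =>
    (M.cols.getD (sigIter 1 j) []).getD (sigIter 1 i) 0 == (M.cols.getD j []).getD i 0) 24) 24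

/-- The matrices over the generators of the unitary subgroup. -/
noncomputable def genMat (g : Fin 4) : H15.Mat := [matG0, matG1, matG2, matG3].getD g.val matO

theorem mat_ok0 : (genMat 0).ok = true ∧ commTest (genMat 0) = true := by decide +kernel

theorem mat_ok1 : (genMat 1).ok = true ∧ commTest (genMat 1) = true := by decide +kernel

theorem mat_ok2 : (genMat 2).ok = true ∧ commTest (genMat 2) = true := by decide +kernel

theorem mat_ok3 : (genMat 3).ok = true ∧ commTest (genMat 3) = true := by decide +kernel

theorem mat_okO : matO.ok = true ∧ commTest matO = true := by decide +kernel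

theorem mats_ok : (∀ g, (genMat g).ok = true ∧ commTest (genMat g) = true) ∧
    matO.ok = true ∧ commTest matO = true :=
  ⟨fun g => match g with
    | ⟨0, _⟩ => mat_ok0
    | ⟨1, _⟩ => mat_ok1
    | ⟨2, _⟩ => mat_ok2
    | ⟨3, _⟩ => mat_ok3, mat_okO⟩

theorem gen_images : ∀ (g : Fin 4) (j : Fin 12),
    codeL (actL (genMat g) (unitL.getD j.val [])) =
      bits (mvC ((H8.U62.subGenC 0).getD g.val 0) (2 ^ j.val)) := by decide +kernel

end Cfsg.Agent.H57.MonsterThree
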