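import Cfsg.Agent.H18.Monster.HeldPerm
import Cfsg.Agent.H57.MonsterThree.Data

/-!
The permutation of cycle type `1^6 3^6` of the code, a bound on its centralizer among the code
permutations and on the code words it fixes, and a nonabelian group of order 27 around it.
-/

set_option autoImplicit false
set_option maxRecDepth 100000

namespace Cfsg.Agent.H57.MonsterThree

open Cfsg Cfsg.Agent.H14 Cfsg.Agent.H15
open H18.Monster.Held (pt pf isWord word_of_test test_of_word preserves mem_M24_of_preserves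
  preserves_of_mem pt_idx idx_pt natWord_pull)

theorem tabs_inv : ((∀ p, pf sigI (pf sigL p) = p) ∧ ∀ p, pf sigL (pf sigI p) = p) ∧
    ((∀ p, pf auxAI (pf auxA p) = p) ∧ ∀ p, pf auxA (pf auxAI p) = p) ∧
    ((∀ p, pf auxBI (pf auxB p) = p) ∧ ∀ p, pf auxB (pf auxBI p) = p) := by decide +kernel

/-- The permutation of cycle type `1^6 3^6`. -/
noncomputable def sig : Equiv.Perm GolayPt := ⟨pf sigL, pf sigI, tabs_inv.1.1, tabs_inv.1.2⟩

/-- A permutation commuting with it. -/
noncomputable def permA : Equiv.Perm GolayPt := ⟨pf auxA, pf auxAI, tabs_inv.2.1.1, tabs_inv.2.1.2⟩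

/-- A second one. -/
noncomputable def permB : Equiv.Perm GolayPt := ⟨pf auxB, pf auxBI, tabs_inv.2.2.1, tabs_inv.2.2.2⟩

theorem idx_pf : (∀ p, idx (pf sigI p) = sigI.getD (idx p) 0) ∧
    (∀ p, idx (pf sigL p) = sigL.getD (idx p) 0) ∧
    (∀ p, idx (pf auxAI p) = auxAI.getD (idx p) 0) ∧
    ∀ p, idx (pf auxBI p) = auxBI.getD (idx p) 0 := by decide +kernel

theorem preserves_ok : preserves sigI = true ∧ preserves auxAI = true ∧ preserves auxBI = true := by
  decide +kernel

theorem sig_mem : sig ∈ M24 := mem_M24_of_preserves idx_pf.1 preserves_ok.1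

theorem permA_mem : permA ∈ M24 := mem_M24_of_preserves idx_pf.2.2.1 preserves_ok.2.1

theorem permB_mem : permB ∈ M24 := mem_M24_of_preserves idx_pf.2.2.2 preserves_ok.2.2

theorem sig_pow_three : sig ^ 3 = 1 := by
  ext p : 1; revert p; decide +kernel

theorem aux_pow : permA ^ 3 = 1 ∧ permB ^ 3 = 1 ∧ permA * permB = sig * permB * permA := by
  refine ⟨?_, ?_, ?_⟩ <;> (ext p : 1; revert p; decide +kernel)

theorem sig_fix_oo : sig none = none := by decide +kernel

theorem sig_ne_one : sig ≠ 1 := fun h =>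
  absurd (congrFun (congrArg DFunLike.coe h) (pt 0)) (by decide +kernel)

/-- The iterate of the permutation on positions. -/
noncomputable def sigIter : ℕ → ℕ → ℕ
  | 0, p => p
  | m + 1, p => sigL.getD (sigIter m p) 0

theorem idx_pow (m : ℕ) (p : GolayPt) : idx ((sig ^ m) p) = sigIter m (idx p) := by
  induction m with
  | zero => rfl
  | succ m ih =>
    rw [pow_succ', Equiv.Perm.mul_apply]
    show idx (pf sigL _) = _
    rw [idx_pf.2.1, ih]
    rfl

theorem orbLab_lt : ∀ p : GolayPt, orbLab.getD (idx p) 0 < 12 := by decide +kernel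

/-- The orbit of a point. -/
noncomputable def lab (p : GolayPt) : Fin 12 := ⟨orbLab.getD (idx p) 0, orbLab_lt p⟩

/-- The representative of an orbit. -/
noncomputable def rep0 (l : Fin 12) : GolayPt := pt (orbRep.getD l.val 0)

theorem lab_rep0 : ∀ l, lab (rep0 l) = l := by decide +kernel

theorem lab_sig : ∀ p, lab (sig p) = lab p := by decide +kernel

theorem orb_spec : ∀ p : GolayPt, p = (sig ^ orbPos.getD (idx p) 0) (rep0 (lab p)) := by
  decide +kernel

theorem lab_pow (m : ℕ) (p : GolayPt) : lab ((sig ^ m) p) = lab p := by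
  induction m with
  | zero => rfl
  | succ m ih => rw [pow_succ', Equiv.Perm.mul_apply, lab_sig, ih]

theorem fixed_iff : ∀ p, sig p = p ↔ (lab p).val < 6 := by decide +kernel

theorem rep0_fixed {l : Fin 12} (h : l.val < 6) : sig (rep0 l) = rep0 l :=
  (fixed_iff _).2 (by rwa [lab_rep0])

/-- The label of a fixed point. -/
def lf (i : Fin 6) : Fin 12 := Fin.castLE (by norm_num) i

/-- The label of the matching triple. -/
def lc (i : Fin 6) : Fin 12 := ⟨i.val + 6, by omega⟩

/-- The permutations of the code commuting with the permutation. -/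
noncomputable def cSub : Subgroup (Equiv.Perm GolayPt) :=
  M24 ⊓ Subgroup.centralizer ({sig} : Set (Equiv.Perm GolayPt))

theorem mem_cSub {π : Equiv.Perm GolayPt} : π ∈ cSub ↔ π ∈ M24 ∧ π * sig = sig * π := by
  rw [cSub, Subgroup.mem_inf, Subgroup.mem_centralizer_singleton_iff]

section

variable {π : Equiv.Perm GolayPt} (hπ : π ∈ cSub)
include hπ

theorem map_pow (m : ℕ) (p : GolayPt) : π ((sig ^ m) p) = (sig ^ m) (π p) := by
  have h : π * sig ^ m = sig ^ m * π :=
    (show Commute π sig from (mem_cSub.1 hπ).2).pow_right m |>.eq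
  exact congrFun (congrArg DFunLike.coe h) p

theorem lab_map (p : GolayPt) : lab (π p) = lab (π (rep0 (lab p))) := by
  conv_lhs => rw [orb_spec p, map_pow hπ, lab_pow]

theorem lab_map_injective : Function.Injective fun l => lab (π (rep0 l)) := by
  intro l m h
  dsimp only at h
  obtain ⟨a, ha⟩ : ∃ a : ℕ, π (rep0 l) = (sig ^ a) (rep0 (lab (π (rep0 l)))) := ⟨_, orb_spec _⟩
  obtain ⟨c, hc⟩ : ∃ c : ℕ, π (rep0 m) = (sig ^ c) (rep0 (lab (π (rep0 m)))) := ⟨_, orb_spec _⟩
  rw [← h] at hc
  have e : π ((sig ^ c) (rep0 l)) = π ((sig ^ a) (rep0 m)) := by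
    rw [map_pow hπ, map_pow hπ, ha, hc, ← Equiv.Perm.mul_apply, ← Equiv.Perm.mul_apply, ← pow_add,
      ← pow_add, add_comm]
  have := congrArg lab (π.injective e)
  rwa [lab_pow, lab_pow, lab_rep0, lab_rep0] at this

theorem fixed_map {l : Fin 12} : (lab (π (rep0 l))).val < 6 ↔ l.val < 6 := by
  conv_rhs => rw [← lab_rep0 l]
  rw [← fixed_iff, ← fixed_iff]
  have h : π (sig (rep0 l)) = sig (π (rep0 l)) := congrFun (congrArg DFunLike.coe (mem_cSub.1 hπ).2) _
  constructor
  · intro e; exact π.injective (h.trans e)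
  · intro e; rw [← h, e]

end

/-- The word of the points with label in a list of four. -/
noncomputable def mask4 (a b c d : Fin 12) : ℕ :=
  Nat.ofBits fun p : Fin 24 =>
    [a.val, b.val, c.val, d.val].contains (orbLab.getD p.val 0)

theorem pairing_table : ∀ u v a b : Fin 6, u ≠ v →
    (isWord (mask4 (lf u) (lf v) (lc u) (lc v)) = true ∧
      (isWord (mask4 (lf u) (lf v) (lc a) (lc b)) = true → (a = u ∧ b = v) ∨ (a = v ∧ b = u))) := by
  decide +kernel

theorem natWord_mask4 (a b c d : Fin 12) (p : GolayPt) :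
    H9.natWord (mask4 a b c d) p = if lab p ∈ [a, b, c, d] then 1 else 0 := by
  have e : (mask4 a b c d).testBit (H9.gIdx p).val = decide (lab p ∈ [a, b, c, d]) := by
    rw [mask4, Nat.testBit_ofBits_lt _ _ (H9.gIdx p).2]
    simp [lab, Fin.ext_iff, idx]
  show (if _ = true then (1 : ZMod 2) else 0) = _
  rw [e]
  simp

/-- A fixed point and its triple go to a fixed point and its triple. -/
theorem pairing {π : Equiv.Perm GolayPt} (hπ : π ∈ cSub) {i u : Fin 6}
    (hu : lab (π (rep0 (lf i))) = lf u) : lab (π (rep0 (lc i))) = lc u := by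
  have hf : ∀ j, ∃ v, lab (π (rep0 (lf j))) = lf v := fun j =>
    ⟨⟨_, (fixed_map hπ (l := lf j)).2 j.2⟩, Fin.ext rfl⟩
  have hc : ∀ j, ∃ a, lab (π (rep0 (lc j))) = lc a := fun j => by
    have h : 6 ≤ (lab (π (rep0 (lc j)))).val := by
      by_contra h
      have := (fixed_map hπ (l := lc j)).1 (by omega)
      simp [lc] at this
    exact ⟨⟨(lab (π (rep0 (lc j)))).val - 6, by omega⟩, Fin.ext
      (show _ = _ - 6 + 6 from (Nat.sub_add_cancel h).symm)⟩
  choose f hf using hf
  choose q hq using hc
  have hfi : f i = u := Fin.ext (by simpa [lf] using congrArg Fin.val ((hf i).symm.trans hu))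
  have key : ∀ j, i ≠ j → (q i = f i ∨ q i = f j) ∧ f i ≠ f j := by
    intro j hij
    have hne : f i ≠ f j := by
      intro e
      have h := lab_map_injective hπ (a₁ := lf i) (a₂ := lf j) (by simp only [hf, e])
      exact hij (Fin.ext (by simpa [lf] using congrArg Fin.val h))
    refine ⟨?_, hne⟩
    have hw : H9.natWord (mask4 (lf i) (lf j) (lc i) (lc j)) ∈ golayCode :=
      word_of_test (pairing_table i j i j hij).1
    have e : (fun p => H9.natWord (mask4 (lf (f i)) (lf (f j)) (lc (q i)) (lc (q j))) (π p)) =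
        H9.natWord (mask4 (lf i) (lf j) (lc i) (lc j)) := by
      funext p
      rw [natWord_mask4, natWord_mask4, ← hf, ← hf, ← hq, ← hq, lab_map hπ p]
      congr 1
      simp only [List.mem_cons, List.not_mem_nil, or_false,
        (lab_map_injective hπ).eq_iff]
    have hw' : H9.natWord (mask4 (lf (f i)) (lf (f j)) (lc (q i)) (lc (q j))) ∈ golayCode := by
      have := ((mem_M24_iff π).1 (mem_cSub.1 hπ).1 _).1 hw
      rw [← e] at this
      simpa using this
    rcases (pairing_table (f i) (f j) (q i) (q j) hne).2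
      (test_of_word (Nat.ofBits_lt_two_pow _) hw') with h | h
    · exact Or.inl h.1
    · exact Or.inr h.1
  obtain ⟨j, k, hij, hik, hjk⟩ : ∃ j k : Fin 6, i ≠ j ∧ i ≠ k ∧ j ≠ k :=
    (by decide : ∀ i : Fin 6, ∃ j k : Fin 6, i ≠ j ∧ i ≠ k ∧ j ≠ k) i
  rcases (key j hij).1 with h | h
  · rw [hq, h, hfi]
  rcases (key k hik).1 with h' | h'
  · rw [hq, h', hfi]
  exfalso
  have hne : f j ≠ f k := by
    intro e
    have h := lab_map_injective hπ (a₁ := lf j) (a₂ := lf k) (by simp only [hf, e])
    exact hjk (Fin.ext (by simpa [lf] using congrArg Fin.val h))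
  exact hne (h.symm.trans h')

/-- The fixed action of the two candidates. -/
def cand (t : Bool) (i : Fin 6) : Fin 6 := bif t then Equiv.swap 4 5 i else i

/-- The table of a candidate with given shifts. -/
noncomputable def candImg (t : Bool) (sh : Fin 6 → Fin 3) : List ℕ :=
  (List.range 24).map fun p =>
    let l := orbLab.getD p 0
    if l < 6 then orbRep.getD (cand t (Fin.ofNat 6 l)).val 0
    else sigIter ((orbPos.getD p 0 + (sh (Fin.ofNat 6 l)).val) % 3)
      (orbRep.getD ((cand t (Fin.ofNat 6 l)).val + 6) 0)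

theorem search : ∀ (t : Bool) (a b c d e : Fin 3),
    preserves (candImg t ![0, a, b, c, d, e]) = true →
      t = false ∧ a = 0 ∧ b = 0 ∧ c = 0 ∧ d = 0 ∧ e = 0 := by
  decide +kernel

theorem candImg_one : ∀ p : GolayPt, (candImg false ![0, 0, 0, 0, 0, 0]).getD (idx p) 0 = idx p := by
  decide +kernel

/-- An element acting as a candidate on the fixed points, and fixing the first triple. -/
theorem cand_trivial {π : Equiv.Perm GolayPt} (hπ : π ∈ cSub) {t : Bool}
    (hf : ∀ i, π (rep0 (lf i)) = rep0 (lf (cand t i)))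
    (h0 : π (rep0 (lc 0)) = rep0 (lc (cand t 0))) : t = false ∧ π = 1 := by
  have hs : ∀ i : Fin 6, ∃ k : Fin 3, π (rep0 (lc i)) = (sig ^ k.val) (rep0 (lc (cand t i))) := by
    intro i
    refine ⟨⟨orbPos.getD (idx (π (rep0 (lc i)))) 0 % 3, Nat.mod_lt _ (by norm_num)⟩, ?_⟩
    conv_lhs => rw [orb_spec (π (rep0 (lc i)))]
    rw [pairing hπ (u := cand t i) (by rw [hf, lab_rep0])]
    dsimp only
    conv_lhs =>
      rw [← Nat.mod_add_div (orbPos.getD (idx (π (rep0 (lc i)))) 0) 3, pow_add, pow_mul,
        sig_pow_three, one_pow, mul_one]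
  choose sh hsh using hs
  have hs0 : sh 0 = 0 := by
    have key : ∀ (l : Fin 6) (k : Fin 3), (sig ^ k.val) (rep0 (lc l)) = rep0 (lc l) → k = 0 := by
      decide +kernel
    exact key _ _ (by rw [← hsh, h0])
  have esh : sh = ![0, sh 1, sh 2, sh 3, sh 4, sh 5] := by
    funext i; fin_cases i <;> simp [hs0]
  have himg : ∀ p, idx (π p) = (candImg t sh).getD (idx p) 0 := by
    intro p
    have hget : (candImg t sh).getD (idx p) 0 =
        if orbLab.getD (idx p) 0 < 6 then
          orbRep.getD (cand t (Fin.ofNat 6 (orbLab.getD (idx p) 0))).val 0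
        else sigIter ((orbPos.getD (idx p) 0 + (sh (Fin.ofNat 6 (orbLab.getD (idx p) 0))).val) % 3)
          (orbRep.getD ((cand t (Fin.ofNat 6 (orbLab.getD (idx p) 0))).val + 6) 0) := by
      rw [candImg, getD_map_of_lt (e := 0) _ (by simpa using idx_lt p),
        List.getD_eq_getElem (List.range 24) _ (by simpa using idx_lt p), List.getElem_range]
    rw [hget]
    have hl := orbLab_lt p
    have hrlt : ∀ m : Fin 12, orbRep.getD m.val 0 < 24 := by decide +kernel
    by_cases h : orbLab.getD (idx p) 0 < 6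
    · rw [if_pos h]
      have e : lab p = lf (Fin.ofNat 6 (orbLab.getD (idx p) 0)) :=
        Fin.ext (show orbLab.getD (idx p) 0 = orbLab.getD (idx p) 0 % 6 by omega)
      have hp : sig p = p := (fixed_iff p).2 h
      have hp' : p = rep0 (lab p) := by
        conv_lhs => rw [orb_spec p]
        exact Equiv.Perm.pow_apply_eq_self_of_apply_eq_self (rep0_fixed h) _
      conv_lhs => rw [hp', e, hf]
      exact idx_pt (hrlt (lf _))
    · rw [if_neg h]
      have e : lab p = lc (Fin.ofNat 6 (orbLab.getD (idx p) 0)) :=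
        Fin.ext (show orbLab.getD (idx p) 0 = orbLab.getD (idx p) 0 % 6 + 6 by omega)
      conv_lhs => rw [orb_spec p, e, map_pow hπ, hsh, ← Equiv.Perm.mul_apply, ← pow_add]
      rw [idx_pow, show idx (rep0 (lc (cand t _))) = orbRep.getD (lc (cand t _)).val 0 from
        idx_pt (hrlt _)]
      have h3 : ∀ n q, q < 24 → sigIter n q = sigIter (n % 3) q := fun n q hq => by
        rw [← idx_pt hq, ← idx_pow, ← idx_pow]
        congr 2
        conv_lhs =>
          rw [← Nat.mod_add_div n 3, pow_add, pow_mul, sig_pow_three, one_pow, mul_one]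
      exact h3 _ _ (hrlt _)
  have hpres := preserves_of_mem (mem_cSub.1 hπ).1 himg
  rw [esh] at hpres
  obtain ⟨ht, ha, hb, hc, hd, he⟩ := search t _ _ _ _ _ hpres
  refine ⟨ht, Equiv.ext fun p => idx_injective ?_⟩
  rw [himg, esh, ht, ha, hb, hc, hd, he, candImg_one]
  rfl

/-- The action on the fixed points. -/
noncomputable def fixAct : cSub →* Equiv.Perm {p : GolayPt // sig p = p} where
  toFun π := (π : Equiv.Perm GolayPt).subtypePerm fun p => by
    have h : (π : Equiv.Perm GolayPt) (sig p) = sig ((π : Equiv.Perm GolayPt) p) :=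
      congrFun (congrArg DFunLike.coe (mem_cSub.1 π.2).2) _
    constructor
    · intro e; exact (π : Equiv.Perm GolayPt).injective (h.trans e)
    · intro e; rw [← h, e]
  map_one' := Equiv.ext fun _ => Subtype.ext rfl
  map_mul' _ _ := Equiv.ext fun _ => Subtype.ext rfl

theorem lf_fixed (i : Fin 6) : sig (rep0 (lf i)) = rep0 (lf i) := rep0_fixed i.2

theorem card_fixed : Fintype.card {p : GolayPt // sig p = p} = 6 := by decide +kernel

/-- At most 1080 code permutations commute with the permutation. -/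
theorem card_cSub_le : Nat.card cSub ≤ 1080 := by
  classical
  have hcase : ∀ (t : Bool) (π : cSub), (∀ i, (π : Equiv.Perm GolayPt) (rep0 (lf i)) =
      rep0 (lf (cand t i))) → t = false ∧ ∃ k : Fin 3, (π : Equiv.Perm GolayPt) = sig ^ k.val := by
    intro t π hf
    set m := orbPos.getD (idx ((π : Equiv.Perm GolayPt) (rep0 (lc 0)))) 0 with hm
    have hlt : ∀ q : GolayPt, orbPos.getD (idx q) 0 < 3 := by decide +kernel
    have hρ : sig ^ (3 - m) * (π : Equiv.Perm GolayPt) ∈ cSub :=
      mul_mem (pow_mem (mem_cSub.2 ⟨sig_mem, rfl⟩) _) π.2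
    have h3 : ∀ q, (sig ^ (3 - m)) ((sig ^ m) q) = q := fun q => by
      rw [← Equiv.Perm.mul_apply, ← pow_add, Nat.sub_add_cancel (hlt _).le, sig_pow_three]
      rfl
    obtain ⟨ht, hρ1⟩ := cand_trivial hρ (t := t)
      (fun i => by
        rw [Equiv.Perm.mul_apply, hf]
        exact Equiv.Perm.pow_apply_eq_self_of_apply_eq_self (rep0_fixed (cand t i).2) _)
      (by
        rw [Equiv.Perm.mul_apply]
        conv_lhs => rw [orb_spec ((π : Equiv.Perm GolayPt) (rep0 (lc 0))),
          pairing π.2 (u := cand t 0) (by rw [hf, lab_rep0])]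
        exact h3 _)
    refine ⟨ht, ⟨⟨m, hlt _⟩, ?_⟩⟩
    calc (π : Equiv.Perm GolayPt) = sig ^ m * (sig ^ (3 - m) * π) := by
          rw [← mul_assoc, ← pow_add, Nat.add_sub_cancel' (hlt _).le, sig_pow_three, one_mul]
      _ = sig ^ m := by rw [hρ1, mul_one]
  have hinj : ∀ π : fixAct.ker, ∃ k : Fin 3, (π.1 : Equiv.Perm GolayPt) = sig ^ k.val := fun π =>
    (hcase false π.1 fun i =>
      congrArg (fun e : Equiv.Perm {p // sig p = p} => (e ⟨rep0 (lf i), lf_fixed i⟩ : GolayPt))
        (MonoidHom.mem_ker.1 π.2)).2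
  choose k hk using hinj
  have hker' : Nat.card fixAct.ker ≤ 3 := by
    refine (Nat.card_le_card_of_injective k fun a b e => Subtype.ext (Subtype.ext ?_)).trans
      (by simp)
    rw [hk, hk, e]
  have hswap : Equiv.swap (⟨_, lf_fixed 4⟩ : {p : GolayPt // sig p = p}) ⟨_, lf_fixed 5⟩ ∉ fixAct.range := by
    rintro ⟨π, e⟩
    have h := hcase true π fun i => by
      have := congrArg (fun e : Equiv.Perm {p // sig p = p} => (e ⟨rep0 (lf i), lf_fixed i⟩ : GolayPt)) e
      refine this.trans ?_
      clear this e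
      revert i
      decide +kernel
    exact Bool.noConfusion h.1
  have h1 := Subgroup.card_mul_index fixAct.range
  have h2 : 2 ≤ fixAct.range.index := by
    rcases Nat.eq_zero_or_pos fixAct.range.index with h | h
    · exact absurd h Subgroup.index_ne_zero_of_finite
    rcases Nat.lt_or_ge fixAct.range.index 2 with h' | h'
    · exfalso
      refine hswap ?_
      rw [Subgroup.index_eq_one.1 (show fixAct.range.index = 1 by omega)]
      exact Subgroup.mem_top _
    · exact h'
  rw [Nat.card_perm, Nat.card_eq_fintype_card (α := {p : GolayPt // sig p = p}), card_fixed] at h1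
  rw [show Nat.factorial 6 = 720 from rfl] at h1
  have h3 := Subgroup.card_mul_index fixAct.ker
  rw [Subgroup.index_ker] at h3
  rw [← h3]
  have h4 := Nat.mul_le_mul (le_refl (Nat.card fixAct.range)) h2
  nlinarith [Nat.mul_le_mul hker' (le_refl (Nat.card fixAct.range))]

/-- A word supported on the remaining orbits. -/
noncomputable def maskR (b : Fin 6 → Bool) : ℕ :=
  Nat.ofBits fun p : Fin 24 => decide (∃ i : Fin 6, restLab.getD i.val 0 = orbLab.getD p.val 0 ∧ b i)

theorem rest_only : ∀ b : Fin 6 → Bool, isWord (maskR b) = true → ∀ i, b i = false := by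
  decide +kernel

theorem lab_split : ∀ l : Fin 12, (∃ i : Fin 6, freeLab.getD i.val 0 = l.val) ∨
    ∃ i : Fin 6, restLab.getD i.val 0 = l.val ∧
      ∀ j : Fin 6, restLab.getD j.val 0 = l.val → j = i := by decide +kernel

/-- The code words fixed by the permutation. -/
abbrev FixW : Type := {c : GolayPt → ZMod 2 // c ∈ golayCode ∧ ∀ p, c (sig p) = c p}

/-- At most 64 code words are fixed. -/
theorem card_fixW_le : Nat.card FixW ≤ 64 := by
  have hlt : ∀ i : Fin 6, freeLab.getD i.val 0 < 12 ∧ restLab.getD i.val 0 < 12 := by decide +kernel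
  let F : FixW → (Fin 6 → ZMod 2) := fun c i => c.1 (rep0 ⟨_, (hlt i).1⟩)
  refine (Nat.card_le_card_of_injective F ?_).trans (by simp)
  intro c d h
  have hinv : ∀ (x : FixW) (m : ℕ) p, x.1 ((sig ^ m) p) = x.1 p := by
    intro x m
    induction m with
    | zero => intro p; rfl
    | succ m ih => intro p; rw [pow_succ', Equiv.Perm.mul_apply, x.2.2, ih]
  set δ := c.1 + d.1 with hδ
  have hδc : δ ∈ golayCode := add_mem c.2.1 d.2.1
  have hδl : ∀ p, δ p = δ (rep0 (lab p)) := fun p => by
    conv_lhs => rw [orb_spec p]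
    show c.1 _ + d.1 _ = c.1 _ + d.1 _
    rw [hinv, hinv]
  set b : Fin 6 → Bool := fun i => decide (δ (rep0 ⟨_, (hlt i).2⟩) = 1) with hb
  have e : δ = H9.natWord (maskR b) := by
    funext p
    show _ = if (maskR b).testBit (H9.gIdx p).val = true then (1 : ZMod 2) else 0
    rw [maskR, Nat.testBit_ofBits_lt _ _ (H9.gIdx p).2, hδl p]
    rcases lab_split (lab p) with ⟨i, hi⟩ | ⟨i, hi, huniq⟩
    · rw [show lab p = ⟨_, (hlt i).1⟩ from Fin.ext hi.symm]
      have hz : δ (rep0 ⟨_, (hlt i).1⟩) = 0 := by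
        show c.1 _ + d.1 _ = 0
        rw [show c.1 _ = d.1 (rep0 ⟨_, (hlt i).1⟩) from congrFun h i]
        exact CharTwo.add_self_eq_zero _
      rw [hz, if_neg]
      intro hex
      obtain ⟨j, hj, -⟩ := of_decide_eq_true hex
      have hdis : ∀ i j : Fin 6, restLab.getD j.val 0 ≠ freeLab.getD i.val 0 := by decide +kernel
      exact hdis i j (hj.trans hi.symm)
    · rw [show lab p = ⟨_, (hlt i).2⟩ from Fin.ext hi.symm]
      have hz : ∀ z : ZMod 2, z = if z = 1 then 1 else 0 := by decide
      conv_lhs => rw [hz (δ _)]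
      refine if_congr ⟨fun h1 => decide_eq_true ⟨i, hi, decide_eq_true h1⟩, fun hex => ?_⟩ rfl rfl
      obtain ⟨j, hj, hbj⟩ := of_decide_eq_true hex
      rw [huniq j hj] at hbj
      exact of_decide_eq_true hbj
  have hzero := rest_only b (test_of_word (Nat.ofBits_lt_two_pow _) (e ▸ hδc))
  have : δ = 0 := by
    rw [e]
    funext p
    show (if _ = true then (1 : ZMod 2) else 0) = 0
    rw [maskR, Nat.testBit_ofBits_lt _ _ (H9.gIdx p).2]
    simp [hzero]
  apply Subtype.ext
  funext p
  have := congrFun this p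
  exact (CharTwo.add_eq_zero).1 this

end Cfsg.Agent.H57.MonsterThree
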