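import Cfsg.Agent.H57.MonsterThree.Quot
import Cfsg.Agent.H57.MonsterThree.PosData
import Cfsg.Agent.H18.Monster.Prime.Setting

/-!
The elements of order three of the monomial group modulo scalars fall into two classes; those that
are not central in a Sylow subgroup of the joint centralizer of two commuting conjugates of the
central involution can be put in the position of a model at a permutation of type `3^8`.
-/

set_option autoImplicit false
set_option maxRecDepth 100000

namespace Cfsg.Agent.H57.MonsterThree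

open Cfsg Cfsg.Agent.H14 Cfsg.Agent.H15
open H18.Monster (permEmb permEmb_mem permEmb_eq_one_of_signSub negOne_mem_signSub)
open H18.Monster.Held (pt pf preserves mem_M24_of_preserves)
open H18.Monster.Data (Std card_pair gv gv_injective)

/-! ### The tables -/

theorem pos_inv : ((∀ p, pf piI (pf piL p) = p) ∧ ∀ p, pf piL (pf piI p) = p) ∧
    (∀ n : Fin 27, ∀ p, pf (conjI.getD n.val []) (pf (conjL.getD n.val []) p) = p) ∧
    ∀ n : Fin 27, ∀ p, pf (conjL.getD n.val []) (pf (conjI.getD n.val []) p) = p := by decide +kernel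

/-- The permutation of cycle type `3^8`. -/
noncomputable def piP : Equiv.Perm GolayPt := ⟨pf piL, pf piI, pos_inv.1.1, pos_inv.1.2⟩

/-- The conjugating permutations. -/
noncomputable def conjP (n : Fin 27) : Equiv.Perm GolayPt :=
  ⟨pf (conjL.getD n.val []), pf (conjI.getD n.val []), pos_inv.2.1 n, pos_inv.2.2 n⟩

theorem pos_idx : (∀ p, idx (pf piI p) = piI.getD (idx p) 0) ∧
    ∀ n : Fin 27, ∀ p, idx (pf (conjI.getD n.val []) p) = (conjI.getD n.val []).getD (idx p) 0 := by
  decide +kernel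

theorem pos_preserves : preserves piI = true ∧
    ∀ n : Fin 27, preserves (conjI.getD n.val []) = true := by decide +kernel

theorem piP_mem : piP ∈ M24 := mem_M24_of_preserves pos_idx.1 pos_preserves.1

theorem conjP_mem (n : Fin 27) : conjP n ∈ M24 :=
  mem_M24_of_preserves (pos_idx.2 n) (pos_preserves.2 n)

/-- The elements of the group of order 27. -/
noncomputable def word (t : Fin 3 × Fin 3 × Fin 3) : Equiv.Perm GolayPt :=
  permA ^ t.1.val * permB ^ t.2.1.val * sig ^ t.2.2.val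

theorem word_injective : Function.Injective fun t : Fin 3 × Fin 3 × Fin 3 => (word t (pt 0), word t (pt 2), word t (pt 19)) := by
  decide +kernel

theorem word_conj (t : Fin 3 × Fin 3 × Fin 3) (ht : t ≠ (0, 0, 0)) :
    ∀ p, conjP ⟨9 * t.1.val + 3 * t.2.1.val + t.2.2.val, by omega⟩ (word t p) =
      (if t.1 ≠ 0 ∧ t.2.1 ≠ 0 then piP else if t.1 = 0 ∧ t.2.1 = 0 ∧ t.2.2 = 2 then sig ^ 2 else sig)
        (conjP ⟨9 * t.1.val + 3 * t.2.1.val + t.2.2.val, by omega⟩ p) := by
  revert t; decide +kernel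

/-- An element of the group of order 27 in the code group. -/
noncomputable def wordM (t : Fin 3 × Fin 3 × Fin 3) : M24 :=
  ⟨word t, mul_mem (mul_mem (pow_mem permA_mem _) (pow_mem permB_mem _)) (pow_mem sig_mem _)⟩

/-- The map of the code group into the monomial group modulo scalars. -/
noncomputable def emb : M24 →* crossImg :=
  ((QuotientGroup.mk' (Subgroup.center Co0)).comp permEmb).codRestrict crossImg
    fun s => ⟨_, permEmb_mem s, rfl⟩

theorem emb_injective : Function.Injective emb := (injective_iff_map_eq_one emb).2 fun s hs => by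
  have h := congrArg Subtype.val hs
  have h' : permEmb s ∈ Subgroup.center Co0 := (QuotientGroup.eq_one_iff _).1 h
  refine permEmb_eq_one_of_signSub ?_
  rcases mem_center_iff.1 h' with e | e <;> rw [e]
  exacts [one_mem _, negOne_mem_signSub]

theorem emb_coe (π : Equiv.Perm GolayPt) (hπ : π ∈ M24) :
    (emb ⟨π, hπ⟩ : Spor.Co1) = QuotientGroup.mk (permAut π hπ) := rfl

/-- The element of the permutation of type `1^6 3^6`. -/
noncomputable def eS : crossImg := emb gS

/-- The element of the permutation of type `3^8`. -/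
noncomputable def eP : crossImg := emb ⟨piP, piP_mem⟩

/-- The Sylow subgroup around the permutation: its members, and the centrality of the permutation. -/
theorem exists_sylow_words : ∃ S : Sylow 3 crossImg,
    (∀ u ∈ (S : Subgroup crossImg), ∃ t, u = emb (wordM t)) ∧ eS ∈ (S : Subgroup crossImg) ∧
      ∀ u ∈ (S : Subgroup crossImg), u * eS = eS * u := by
  haveI : Fact (Nat.Prime 3) := ⟨Nat.prime_three⟩
  obtain ⟨S, hS⟩ := (auxP_isPGroup.map emb).exists_le_sylow
  have hw : ∀ t, wordM t ∈ auxP := by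
    intro t
    have hA : gA ∈ auxP := Subgroup.subset_closure (Or.inl rfl)
    have hB : gB ∈ auxP := Subgroup.subset_closure (Or.inr rfl)
    have hs : gS ∈ auxP := gS_comm ▸ mul_mem (mul_mem (mul_mem hA hB) (inv_mem hA)) (inv_mem hB)
    have e : wordM t = gA ^ t.1.val * gB ^ t.2.1.val * gS ^ t.2.2.val := Subtype.ext (by
      simp [wordM, word, gA, gB, gS])
    rw [e]
    exact mul_mem (mul_mem (pow_mem hA _) (pow_mem hB _)) (pow_mem hs _)
  let f : Fin 3 × Fin 3 × Fin 3 → (S : Subgroup crossImg) := fun t => ⟨emb (wordM t), hS ⟨_, hw t, rfl⟩⟩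
  have hinj : Function.Injective f := fun t t' e => by
    have e' := congrArg Subtype.val (emb_injective (congrArg Subtype.val e))
    exact word_injective (by simp only [show word t = word t' from e'])
  have hcard : Nat.card (Fin 3 × Fin 3 × Fin 3) = Nat.card (S : Subgroup crossImg) := by
    rw [S.card_eq_multiplicity, factorization_three (j := 0) (by rw [card_crossImg, pow_zero, mul_one])]
    simp
  have hbij := (Nat.bijective_iff_injective_and_card f).2 ⟨hinj, hcard⟩
  have hall : ∀ u ∈ (S : Subgroup crossImg), ∃ t, u = emb (wordM t) := fun u hu => by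
    obtain ⟨t, ht⟩ := hbij.2 ⟨u, hu⟩
    exact ⟨t, (congrArg Subtype.val ht).symm⟩
  have e1 : eS = emb (wordM (0, 0, 1)) := by
    rw [eS]; congr 1
  refine ⟨S, hall, e1 ▸ (f (0, 0, 1)).2, fun u hu => ?_⟩
  obtain ⟨t, rfl⟩ := hall u hu
  rw [eS, ← map_mul, ← map_mul]
  congr 1
  apply Subtype.ext
  show word t * sig = sig * word t
  have hA : Commute sig permA := aux_facts.1
  have hB : Commute sig permB := aux_facts.2.1
  exact (((hA.pow_right _).mul_right (hB.pow_right _)).mul_right ((Commute.refl sig).pow_right _)).eq.symm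

/-- Every element of order three is conjugate to one of the two elements, or to the square of the first. -/
theorem crossImg_classes {u : crossImg} (h3 : u ^ 3 = 1) (h1 : u ≠ 1) :
    ∃ x : crossImg, x * u * x⁻¹ = eP ∨ x * u * x⁻¹ = eS ∨ x * u * x⁻¹ = eS ^ 2 := by
  haveI : Fact (Nat.Prime 3) := ⟨Nat.prime_three⟩
  obtain ⟨S, hall, -, -⟩ := exists_sylow_words
  have hp : IsPGroup 3 (Subgroup.zpowers u) := IsPGroup.of_card (n := 1)
    (by rw [Nat.card_zpowers, orderOf_eq_prime h3 h1, pow_one])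
  obtain ⟨R, hR⟩ := hp.exists_le_sylow
  obtain ⟨g, hg⟩ := MulAction.exists_smul_eq crossImg R S
  have hm : g * u * g⁻¹ ∈ (S : Subgroup crossImg) := by
    rw [← hg]; exact ⟨u, hR (Subgroup.mem_zpowers u), rfl⟩
  obtain ⟨t, ht⟩ := hall _ hm
  have ht0 : t ≠ (0, 0, 0) := by
    rintro rfl
    apply h1
    have : wordM (0, 0, 0) = 1 := Subtype.ext (by simp [wordM, word])
    rw [this, map_one, conj_eq_one_iff] at ht
    exact ht
  refine ⟨emb ⟨_, conjP_mem ⟨9 * t.1.val + 3 * t.2.1.val + t.2.2.val, by omega⟩⟩ * g, ?_⟩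
  set n : Fin 27 := ⟨9 * t.1.val + 3 * t.2.1.val + t.2.2.val, by omega⟩
  have e : emb ⟨_, conjP_mem n⟩ * g * u * (emb ⟨_, conjP_mem n⟩ * g)⁻¹ =
      emb (⟨_, conjP_mem n⟩ * wordM t * ⟨_, conjP_mem n⟩⁻¹) := by
    rw [map_mul, map_mul, map_inv, ← ht]; group
  have hc : conjP n * word t * (conjP n)⁻¹ =
      if t.1 ≠ 0 ∧ t.2.1 ≠ 0 then piP else if t.1 = 0 ∧ t.2.1 = 0 ∧ t.2.2 = 2 then sig ^ 2 else sig := by
    rw [mul_inv_eq_iff_eq_mul]
    exact Equiv.ext (word_conj t ht0)
  rw [e]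
  split_ifs at hc with a b
  · exact Or.inl (congrArg emb (Subtype.ext hc))
  · exact Or.inr (Or.inr (by rw [eS, ← _root_.map_pow]; exact congrArg emb (Subtype.ext hc)))
  · exact Or.inr (Or.inl (congrArg emb (Subtype.ext hc)))

/-! ### The joint centralizer -/

variable {G : Type*} [Group G] [Finite G] {z : G}
  {Q : Subgroup (Subgroup.centralizer ({z} : Set G))} [Q.Normal] (D : H18.Monster.Data z Q)

/-- Central in some Sylow 3-subgroup. -/
def Central {Γ : Type*} [Group Γ] (a : Γ) : Prop :=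
  ∃ (P : Sylow 3 Γ) (hm : a ∈ (P : Subgroup Γ)),
    (⟨a, hm⟩ : (P : Subgroup Γ)) ∈ Subgroup.center (P : Subgroup Γ)

omit [Finite G] in
theorem toCross_surjective [Finite G] {q : Q} {g : G} (h : Std D q g) :
    Function.Surjective (toCross D h) := by
  rintro ⟨v, k, hk, rfl⟩
  have hmem : h.toQuot k ∈ crossStab.map h.toQuot := ⟨k, hk, rfl⟩
  rw [← h.stab_eq] at hmem
  obtain ⟨c, ⟨h1, h2⟩, e⟩ := hmem
  refine ⟨⟨(c : G), mem_pair.2 ⟨Subgroup.mem_centralizer_singleton_iff.1 h1,
    Subgroup.mem_centralizer_singleton_iff.1 h2⟩⟩, Subtype.ext ?_⟩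
  rw [toCross_coe]
  exact (h.toQuot_eq_iff.1 e.symm).symm

theorem toCross_ne_one {q : Q} {g : G} (h : Std D q g)
    {a : Subgroup.centralizer ({z, gv q} : Set G)} (h3 : a ^ 3 = 1) (h1 : a ≠ 1) :
    toCross D h a ≠ 1 := by
  intro e
  obtain ⟨m, hm⟩ := toCross_ker D h ⟨a, MonoidHom.mem_ker.2 e⟩
  have h2 : a ^ 2 ^ m = 1 := congrArg Subtype.val hm
  have := Nat.Coprime.eq_one_of_dvd
    (Nat.Coprime.coprime_dvd_left (orderOf_dvd_of_pow_eq_one h3) (Nat.Coprime.pow_right m (by norm_num)))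
    (orderOf_dvd_of_pow_eq_one h2)
  exact h1 (orderOf_eq_one_iff.1 this)

/-- An element whose image is central in a Sylow subgroup of the image is central in a Sylow subgroup. -/
theorem central_of_image {q : Q} (h1 : IsConj z (gv q)) {g : G} (h : Std D q g)
    {a : Subgroup.centralizer ({z, gv q} : Set G)} (h3 : a ^ 3 = 1)
    (hc : Central (toCross D h a)) : Central a := by
  haveI : Fact (Nat.Prime 3) := ⟨Nat.prime_three⟩
  obtain ⟨S, hm, hcen⟩ := hc
  set H := (S : Subgroup crossImg).comap (toCross D h) with hH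
  have hp : IsPGroup 3 (Subgroup.zpowers (⟨a, hm⟩ : H)) := by
    obtain ⟨k, hk⟩ : ∃ k, Nat.card (Subgroup.zpowers (⟨a, hm⟩ : H)) = 3 ^ k := by
      rw [Nat.card_zpowers]
      have hd : orderOf (⟨a, hm⟩ : H) ∣ 3 ^ 1 := by
        rw [pow_one]; exact orderOf_dvd_of_pow_eq_one (Subtype.ext h3)
      obtain ⟨k, -, hk⟩ := (Nat.dvd_prime_pow Nat.prime_three).1 hd
      exact ⟨k, hk⟩
    exact IsPGroup.of_card hk
  obtain ⟨P, hP⟩ := hp.exists_le_sylow
  have hPL : IsPGroup 3 ((P : Subgroup H).map H.subtype) := P.isPGroup'.map _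
  obtain ⟨P', hP'⟩ := hPL.exists_le_sylow
  obtain ⟨hinj, hc27⟩ := sylow_image D h1 h P'
  have hP27 : Nat.card ((P : Subgroup H).map H.subtype) = 27 := by
    rw [Subgroup.card_map_of_injective H.subtype_injective, P.card_eq_multiplicity]
    have hS : Nat.card (S : Subgroup crossImg) = 27 := by
      rw [S.card_eq_multiplicity, factorization_three (j := 0) (by rw [card_crossImg, pow_zero, mul_one])]
      norm_num
    have hd : 27 ∣ Nat.card H := by
      let φ : H →* (S : Subgroup crossImg) :=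
        ((toCross D h).comp H.subtype).codRestrict _ fun u => u.2
      rw [← hS]
      exact Subgroup.card_dvd_of_surjective φ fun v => by
        obtain ⟨u, hu⟩ := toCross_surjective D h v.1
        exact ⟨⟨u, show toCross D h u ∈ (S : Subgroup crossImg) from hu ▸ v.2⟩, Subtype.ext hu⟩
    have hu : Nat.card H ∣ Nat.card (Subgroup.centralizer ({z, gv q} : Set G)) := H.card_subgroup_dvd_card
    have hj : (Nat.card (Subgroup.centralizer ({z, gv q} : Set G))).factorization 3 = 3 := by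
      obtain ⟨j, hj⟩ := D.card_pair h1 h.hne
      exact factorization_three (j := j) (by rw [pair_eq, hj])
    have hle := (Nat.factorization_le_iff_dvd Nat.card_pos.ne' Nat.card_pos.ne').2 hu 3
    have hge := (Nat.prime_three.pow_dvd_iff_le_factorization (k := 3) (Nat.card_pos (α := H)).ne').1
      (by norm_num; exact hd)
    rw [show (Nat.card H).factorization 3 = 3 by omega]
    norm_num
  have heq : (P : Subgroup H).map H.subtype = (P' : Subgroup (Subgroup.centralizer ({z, gv q} : Set G))) :=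
    Subgroup.eq_of_le_of_card_ge hP' (by rw [hP27, hc27])
  have haP : a ∈ (P' : Subgroup (Subgroup.centralizer ({z, gv q} : Set G))) := by
    rw [← heq]; exact ⟨⟨a, hm⟩, hP (Subgroup.mem_zpowers _), rfl⟩
  refine ⟨P', haP, Subgroup.mem_center_iff.2 fun v => hinj ?_⟩
  have hv : (v : (Subgroup.centralizer ({z, gv q} : Set G))) ∈ (P : Subgroup H).map H.subtype := by
    rw [heq]; exact v.2
  obtain ⟨w, -, hw⟩ := hv
  have hwS : toCross D h (v : (Subgroup.centralizer ({z, gv q} : Set G))) ∈ (S : Subgroup crossImg) := by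
    rw [← hw]; exact w.2
  have e := congrArg Subtype.val (Subgroup.mem_center_iff.1 hcen ⟨_, hwS⟩)
  simpa [map_mul] using e

/-- The image of an element of order three which is central in no Sylow subgroup. -/
theorem noncentral_image {q : Q} (h1 : IsConj z (gv q)) {g : G} (h : Std D q g)
    {a : Subgroup.centralizer ({z, gv q} : Set G)} (h3 : a ^ 3 = 1) (ha : a ≠ 1)
    (hnc : ¬ Central a) : ∃ x : crossImg, x * toCross D h a * x⁻¹ = eP := by
  obtain ⟨x, hx⟩ := crossImg_classes (u := toCross D h a) (by rw [← _root_.map_pow, h3, map_one])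
    (toCross_ne_one D h h3 ha)
  refine hx.elim (fun e => ⟨x, e⟩) fun hsig => absurd (central_of_image D h1 h h3 ?_) hnc
  obtain ⟨S, -, hS, hScomm⟩ := exists_sylow_words
  have hkey : ∀ v ∈ (S : Subgroup crossImg), (∀ w ∈ (S : Subgroup crossImg), w * v = v * w) →
      x * toCross D h a * x⁻¹ = v → Central (toCross D h a) := by
    intro v hv hvc e
    have hmem : ∀ u, u ∈ ((x⁻¹ • S : Sylow 3 crossImg) : Subgroup crossImg) ↔
        x * u * x⁻¹ ∈ (S : Subgroup crossImg) := fun u => by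
      show u ∈ (S : Subgroup crossImg).map (MulAut.conj x⁻¹).toMonoidHom ↔ _
      constructor
      · rintro ⟨w, hw, rfl⟩
        simp only [MulEquiv.coe_toMonoidHom, MulAut.conj_apply, inv_inv]
        rwa [← mul_assoc, ← mul_assoc, mul_inv_cancel, one_mul, mul_inv_cancel_right]
      · intro hu; exact ⟨_, hu, by simp [mul_assoc]⟩
    refine ⟨x⁻¹ • S, (hmem _).2 (e ▸ hv), Subgroup.mem_center_iff.2 fun w => Subtype.ext ?_⟩
    have hw := hvc _ ((hmem _).1 w.2)
    rw [← e] at hw
    show (w : crossImg) * toCross D h a = toCross D h a * w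
    calc (w : crossImg) * toCross D h a
        = x⁻¹ * (x * w * x⁻¹ * (x * toCross D h a * x⁻¹)) * x := by group
      _ = x⁻¹ * (x * toCross D h a * x⁻¹ * (x * w * x⁻¹)) * x := by rw [hw]
      _ = _ := by group
  rcases hsig with e | e
  · exact hkey _ hS hScomm e
  · exact hkey _ (pow_mem hS 2) (fun w hw => ((show Commute w eS from hScomm w hw).pow_right 2).eq) e

/-! ### Position of a model -/

variable {T : Type} [Group T] (M : H18.Monster.Prime.Model T)

include D in
/-- A subgroup of order three central in no Sylow subgroup is generated by an element in the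
position of a model at a permutation of type `3^8`. -/
theorem exists_primeElt_three (hp : M.p = 3)
    (hπ : ∃ g ∈ M24, g * piP * g⁻¹ = M.π ∨ g * piP * g⁻¹ = M.π⁻¹)
    {q : Q} (h1 : IsConj z (gv q)) (h2 : gv q ≠ z) (Y : Subgroup G)
    (hY : Y ≤ Subgroup.centralizer ({z, gv q} : Set G)) (hY3 : Nat.card Y = 3)
    (hnc : ∀ P : Sylow 3 (Subgroup.centralizer ({z, gv q} : Set G)),
      ¬ Y.subgroupOf (Subgroup.centralizer ({z, gv q} : Set G)) ≤
        (Subgroup.center ↥(P : Subgroup ↥(Subgroup.centralizer ({z, gv q} : Set G)))).map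
          (P : Subgroup ↥(Subgroup.centralizer ({z, gv q} : Set G))).subtype) :
    ∃ (D' : H18.Monster.Data z Q) (b : G), H18.Monster.Data.PrimeElt D' M b ∧
      Y = Subgroup.zpowers b := by
  haveI : Fact (Nat.Prime 3) := ⟨Nat.prime_three⟩
  obtain ⟨D₁, hq⟩ := D.exists_standard h1 h2
  obtain ⟨g, hg⟩ := isConj_iff.1 h1
  have hstd : Std D₁ q g := ⟨hq, hg, h2⟩
  obtain ⟨⟨y, hy⟩, hy1⟩ : ∃ y : Y, y ≠ 1 := by
    haveI : Nontrivial Y := Finite.one_lt_card_iff_nontrivial.1 (by omega)
    exact exists_ne 1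
  have hy3 : y ^ 3 = 1 := congrArg Subtype.val (hY3 ▸ pow_card_eq_one' (x := (⟨y, hy⟩ : Y)))
  have hy1' : y ≠ 1 := fun e => hy1 (Subtype.ext e)
  have hYy : Y = Subgroup.zpowers y := (Subgroup.eq_of_le_of_card_ge
    (by rw [Subgroup.zpowers_le]; exact hy)
    (by rw [hY3, Nat.card_zpowers, orderOf_eq_prime hy3 hy1'])).symm
  set a : Subgroup.centralizer ({z, gv q} : Set G) := ⟨y, hY hy⟩ with ha
  have hnca : ¬ Central a := by
    rintro ⟨P, hm, hcen⟩
    refine hnc P fun v hv => ?_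
    have hv' : (v : G) ∈ Subgroup.zpowers y := hYy ▸ hv
    obtain ⟨j, hj⟩ := Subgroup.mem_zpowers_iff.1 hv'
    exact ⟨⟨a, hm⟩ ^ j, Subgroup.zpow_mem _ hcen j, Subtype.ext (by simpa using hj)⟩
  obtain ⟨x, hx⟩ := noncentral_image D₁ h1 hstd (a := a) (Subtype.ext hy3)
    (fun e => hy1' (congrArg Subtype.val e)) hnca
  obtain ⟨c, hc, hcπ⟩ := hπ
  obtain ⟨x', hx'⟩ : ∃ x' : crossImg, x' * toCross D₁ hstd a * x'⁻¹ = emb ⟨M.π, M.hπ⟩ ∨
      x' * toCross D₁ hstd a * x'⁻¹ = emb ⟨M.π, M.hπ⟩⁻¹ := by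
    refine ⟨emb ⟨c, hc⟩ * x, ?_⟩
    have e : emb ⟨c, hc⟩ * x * toCross D₁ hstd a * (emb ⟨c, hc⟩ * x)⁻¹ =
        emb ⟨c * piP * c⁻¹, mul_mem (mul_mem hc piP_mem) (inv_mem hc)⟩ := by
      calc _ = emb ⟨c, hc⟩ * (x * toCross D₁ hstd a * x⁻¹) * (emb ⟨c, hc⟩)⁻¹ := by group
        _ = emb ⟨c, hc⟩ * emb ⟨piP, piP_mem⟩ * (emb ⟨c, hc⟩)⁻¹ := by rw [hx]; rfl
        _ = _ := by rw [← map_mul, ← map_inv, ← map_mul]; rfl
    rw [e]
    rcases hcπ with h | h
    · exact Or.inl (congrArg emb (Subtype.ext h))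
    · exact Or.inr (congrArg emb (Subtype.ext h))
  obtain ⟨b, hbY, hbord, hbimg⟩ : ∃ b : Subgroup.centralizer ({z, gv q} : Set G), (b : G) ∈ Y ∧
      orderOf (b : G) = 3 ∧ x' * toCross D₁ hstd b * x'⁻¹ = emb ⟨M.π, M.hπ⟩ := by
    rcases hx' with h | h
    · exact ⟨a, hy, orderOf_eq_prime hy3 hy1', h⟩
    · refine ⟨a⁻¹, Y.inv_mem hy, ?_, ?_⟩
      · show orderOf y⁻¹ = 3
        rw [orderOf_inv, orderOf_eq_prime hy3 hy1']
      · rw [map_inv, show x' * (toCross D₁ hstd a)⁻¹ * x'⁻¹ = (x' * toCross D₁ hstd a * x'⁻¹)⁻¹ by group,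
          h, map_inv, inv_inv]
  obtain ⟨k, hk, hkx⟩ := (inv_mem x'.2 : ((x'⁻¹ : crossImg) : Spor.Co1) ∈ crossImg)
  refine ⟨D₁.twist k, b, ⟨(mem_pair.1 b.2).1, by rw [hp]; exact hbord, ?_⟩,
    (Subgroup.eq_of_le_of_card_ge (by rw [Subgroup.zpowers_le]; exact hbY)
      (by rw [hY3, Nat.card_zpowers, hbord])).symm⟩
  show (MulAut.conj (QuotientGroup.mk k : Cfsg.Spor.Co1)⁻¹) (D₁.e (QuotientGroup.mk _)) = _
  have e := congrArg Subtype.val hbimg
  simp only [Subgroup.coe_mul, Subgroup.coe_inv, toCross_coe, emb_coe] at e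
  rw [← H18.Monster.Prime.Model.σ] at e
  rw [MulAut.conj_apply, inv_inv, ← e]
  have hk' : (QuotientGroup.mk k : Cfsg.Spor.Co1) = ((x'⁻¹ : crossImg) : Spor.Co1) := hkx
  rw [hk', Subgroup.coe_inv, inv_inv]

/-! ### The correcting element -/

variable {M}

/-- For a model of rank eight an element exchanging `z` and the marked conjugate can be corrected to
normalize the group of `b`. -/
theorem norm_three (hp : M.p = 3) (hn : M.n = 8) {b : G} (S : H18.Monster.Data.PrimeElt D M b)
    (w : G) (hwz : w * z * w⁻¹ = ((S.sec M.mark : H18.Monster.Data.PrimeElt.cen b z) : G))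
    (hwx : w * ((S.sec M.mark : H18.Monster.Data.PrimeElt.cen b z) : G) * w⁻¹ = z) :
    ∃ l : G, l * z = z * l ∧
      l * ((S.sec M.mark : H18.Monster.Data.PrimeElt.cen b z) : G) =
        ((S.sec M.mark : H18.Monster.Data.PrimeElt.cen b z) : G) * l ∧
      l * w * b * (l * w)⁻¹ ∈ Subgroup.zpowers b := by
  haveI : Fact (Nat.Prime 3) := ⟨Nat.prime_three⟩
  obtain ⟨h1, h2⟩ := S.conj_mark
  set r := S.sec M.mark with hr
  set x := ((r : H18.Monster.Data.PrimeElt.cen b z) : G) with hx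
  obtain ⟨q, hqx⟩ : ∃ q : Q, gv q = x := ⟨S.qOf r, S.gv_qOf r⟩
  have hxb : x * b = b * x :=
    Subgroup.mem_centralizer_singleton_iff.1 (r : H18.Monster.Data.PrimeElt.cen b z).2.2
  rw [← hqx] at hwz hwx hxb h1 h2 ⊢
  clear_value x
  clear hqx hx
  set L := Subgroup.centralizer ({z, gv q} : Set G) with hL
  have hbL : b ∈ L := mem_pair.2 ⟨S.hzb, hxb.symm⟩
  have hb3 : b ^ 3 = 1 := hp ▸ S.b_pow
  have hb1 : b ≠ 1 := fun e => by
    have := S.ord; rw [e, orderOf_one, hp] at this; omega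
  have hwin : ∀ u : G, u ∈ L → w * u * w⁻¹ ∈ L := fun u hu => by
    obtain ⟨e1, e2⟩ := mem_pair.1 hu
    refine mem_pair.2 ⟨?_, ?_⟩
    · calc w * u * w⁻¹ * z = w * u * w⁻¹ * (w * gv q * w⁻¹) := by rw [hwx]
        _ = w * (u * gv q) * w⁻¹ := by group
        _ = w * (gv q * u) * w⁻¹ := by rw [e2]
        _ = (w * gv q * w⁻¹) * (w * u * w⁻¹) := by group
        _ = z * (w * u * w⁻¹) := by rw [hwx]
    · calc w * u * w⁻¹ * gv q = w * u * w⁻¹ * (w * z * w⁻¹) := by rw [hwz]
        _ = w * (u * z) * w⁻¹ := by group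
        _ = w * (z * u) * w⁻¹ := by rw [e1]
        _ = (w * z * w⁻¹) * (w * u * w⁻¹) := by group
        _ = gv q * (w * u * w⁻¹) := by rw [hwz]
  let cw : L →* L :=
    ((MulAut.conj w).toMonoidHom.comp L.subtype).codRestrict L fun u => hwin u u.2
  have hcw : Function.Injective cw := fun u v e =>
    Subtype.ext ((MulAut.conj w).injective (congrArg Subtype.val e))
  have hcws : Function.Surjective cw := Finite.surjective_of_injective hcw
  set a : L := ⟨b, hbL⟩ with ha
  have ha3 : a ^ 3 = 1 := Subtype.ext hb3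
  have ha1 : a ≠ 1 := fun e => hb1 (congrArg Subtype.val e)
  have hnca : ¬ Central a := by
    rintro ⟨P, hm, hcen⟩
    obtain ⟨D', b', S', hYb, -, -⟩ := exists_three D h1 h2 (Subgroup.zpowers b)
      (by rw [Subgroup.zpowers_le]; exact hbL)
      (by rw [Nat.card_zpowers, S.ord, hp]) P (fun v hv => by
        obtain ⟨j, hj⟩ := Subgroup.mem_zpowers_iff.1 (show (v : G) ∈ Subgroup.zpowers b from hv)
        exact ⟨⟨a, hm⟩ ^ j, Subgroup.zpow_mem _ hcen j, Subtype.ext (by simpa [ha] using hj)⟩)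
    have hcb : ∀ u : G, u ∈ Subgroup.centralizer ({b} : Set G) ↔
        u ∈ Subgroup.centralizer ({b'} : Set G) := fun u => by
      have key : ∀ v : G, u ∈ Subgroup.centralizer ({v} : Set G) ↔
          ∀ t ∈ Subgroup.zpowers v, Commute u t := fun v => by
        rw [Subgroup.mem_centralizer_singleton_iff]
        constructor
        · rintro h _ ⟨j, rfl⟩; exact (show Commute u v from h).zpow_right j
        · intro h; exact h v (Subgroup.mem_zpowers v)
      rw [key, key, hYb]
    have hcen' : H18.Monster.Data.PrimeElt.cen b z = Three.cen b' z := by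
      ext u
      exact and_congr Iff.rfl (hcb u)
    have c1 : Nat.card (D.F.subgroupOf (H18.Monster.Data.PrimeElt.cen b z)) = 2 ^ 9 := by
      rw [show (9 : ℕ) = M.n + 1 by rw [hn]]; exact S.card_qFix
    have c2 : Nat.card (D'.F.subgroupOf (Three.cen b' z)) = 2 ^ 13 := S'.card_qFix
    rw [hcen'] at c1
    change Nat.card (D'.F.subgroupOf (Three.cen b' z)) = 2 ^ 9 at c1
    rw [c2] at c1
    norm_num at c1
  have hncw : ¬ Central (cw a) := by
    rintro ⟨P, hm, hcen⟩
    refine hnca ⟨P.comapOfInjective cw hcw (by rw [MonoidHom.range_eq_top.2 hcws]; exact le_top),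
      hm, Subgroup.mem_center_iff.2 fun v => Subtype.ext (hcw ?_)⟩
    have e := congrArg Subtype.val (Subgroup.mem_center_iff.1 hcen ⟨cw v, v.2⟩)
    simp only [Subgroup.coe_mul] at e
    rw [Subgroup.coe_mul, Subgroup.coe_mul, map_mul, map_mul]
    exact e
  obtain ⟨D₁, hq⟩ := D.exists_standard h1 h2
  obtain ⟨g, hg⟩ := isConj_iff.1 h1
  have hstd : Std D₁ q g := ⟨hq, hg, h2⟩
  set f := toCross D₁ hstd with hf
  obtain ⟨u, hu⟩ := noncentral_image D₁ h1 hstd ha3 ha1 hnca
  obtain ⟨v, hv⟩ := noncentral_image D₁ h1 hstd (a := cw a) (by rw [← _root_.map_pow, ha3, map_one])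
    (fun e => ha1 (hcw (by rw [e, map_one]))) hncw
  obtain ⟨l, hl⟩ := toCross_surjective D₁ hstd (u⁻¹ * v)
  set a' : L := l * cw a * l⁻¹ with ha'
  have hfa : f a' = f a := by
    calc f a' = f l * f (cw a) * (f l)⁻¹ := by rw [ha', map_mul, map_mul, map_inv]
      _ = u⁻¹ * v * f (cw a) * (u⁻¹ * v)⁻¹ := by rw [hf, hl]
      _ = u⁻¹ * (v * f (cw a) * v⁻¹) * u := by group
      _ = u⁻¹ * (u * f a * u⁻¹) * u := by rw [hf, hv, hu]
      _ = f a := by group
  set H := (Subgroup.zpowers (f a)).comap f with hH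
  have haH : a ∈ H := Subgroup.mem_zpowers (f a)
  have ha'H : a' ∈ H := by
    show f a' ∈ Subgroup.zpowers (f a)
    rw [hfa]
    exact Subgroup.mem_zpowers (f a)
  have hsqH : ¬ 3 ^ 2 ∣ Nat.card H := by
    intro hd
    have hk := Subgroup.card_mul_index ((f.comp H.subtype).ker)
    rw [Subgroup.index_ker] at hk
    have hr : Nat.card (f.comp H.subtype).range ∣ 3 := by
      refine (Subgroup.card_dvd_of_le (K := Subgroup.zpowers (f a)) ?_).trans ?_
      · rintro _ ⟨t, rfl⟩; exact t.2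
      · rw [Nat.card_zpowers]
        exact orderOf_dvd_of_pow_eq_one (by rw [← _root_.map_pow, ha3, map_one])
    haveI : Fact (Nat.Prime 2) := ⟨Nat.prime_two⟩
    have h2g : IsPGroup 2 (f.comp H.subtype).ker :=
      (toCross_ker D₁ hstd).of_injective
        ({ toFun := fun t => ⟨(t : H), MonoidHom.mem_ker.2 (MonoidHom.mem_ker.1 t.2)⟩
           map_one' := rfl
           map_mul' := fun _ _ => rfl } : (f.comp H.subtype).ker →* f.ker)
        (fun t t' e => Subtype.ext (Subtype.ext (congrArg (fun s : f.ker => (s : L)) e)))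
    obtain ⟨m, hm⟩ := IsPGroup.iff_card.1 h2g
    rw [← hk, hm] at hd
    have := Nat.le_of_dvd (by norm_num)
      ((Nat.Coprime.pow 2 m (by norm_num : Nat.Coprime 3 2)).dvd_of_dvd_mul_left hd |>.trans hr)
    norm_num at this
  have hordw : orderOf a' = 3 := by
    rw [ha']
    show orderOf (MulAut.conj l (cw a)) = 3
    rw [MulEquiv.orderOf_eq, orderOf_injective cw hcw, orderOf_eq_prime ha3 ha1]
  obtain ⟨c, hc⟩ := H18.Monster.Prime.conj_prime hsqH (H := Subgroup.zpowers (⟨a, haH⟩ : H))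
    (K := Subgroup.zpowers (⟨a', ha'H⟩ : H))
    (by rw [Nat.card_zpowers, ← Subgroup.orderOf_coe]; exact orderOf_eq_prime ha3 ha1)
    (by rw [Nat.card_zpowers, ← Subgroup.orderOf_coe]; exact hordw)
  have hm : c * (⟨a', ha'H⟩ : H) * c⁻¹ ∈ Subgroup.zpowers (⟨a, haH⟩ : H) := by
    rw [← hc]; exact ⟨_, Subgroup.mem_zpowers _, rfl⟩
  obtain ⟨j, hj⟩ := Subgroup.mem_zpowers_iff.1 hm
  refine ⟨((c * l : L) : G), (mem_pair.1 (c * l : L).2).1, (mem_pair.1 (c * l : L).2).2,
    Subgroup.mem_zpowers_iff.2 ⟨j, ?_⟩⟩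
  have e := congrArg (fun t : H => ((t : L) : G)) hj
  simp only [SubgroupClass.coe_zpow, Subgroup.coe_mul, Subgroup.coe_inv, ha, ha'] at e
  rw [e]
  show _ = (c : G) * l * w * b * ((c : G) * l * w)⁻¹
  show (c : G) * ((l : G) * (w * b * w⁻¹) * (l : G)⁻¹) * (c : G)⁻¹ = _
  group

end Cfsg.Agent.H57.MonsterThree
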