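import Cfsg.Agent.H57.MonsterThree.Sylow
import Cfsg.Agent.H57.MonsterThree.Image
import Cfsg.Agent.H18.Monster.HeldExtra
import Cfsg.Agent.H24.Extraspecial

/-!
The part of `Q` commuting with an element of order three in standard position, and the centralizer of
the central involution in the centralizer of that element modulo itself.
-/

set_option autoImplicit false
set_option maxRecDepth 100000

namespace Cfsg.Agent.H57.MonsterThree

open Cfsg.Agent.H14
open scoped commutatorElement
open H18.Monster.Held (dvd_of_congr)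
open H18.Monster.Data (gv gv_injective)

/-- Two subgroups of order 3 are conjugate when 9 does not divide the group order. -/
theorem conj_three {Γ : Type*} [Group Γ] [Finite Γ] (h9 : ¬ 9 ∣ Nat.card Γ) {H K : Subgroup Γ}
    (hH : Nat.card H = 3) (hK : Nat.card K = 3) :
    ∃ g : Γ, K.map (MulAut.conj g).toMonoidHom = H := by
  haveI : Fact (Nat.Prime 3) := ⟨by norm_num⟩
  have h7 : (Nat.card Γ).factorization 3 = 1 := by
    have h1 : 3 ∣ Nat.card Γ := hH ▸ H.card_subgroup_dvd_card
    have hp : Nat.Prime 3 := by norm_num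
    have hn : Nat.card Γ ≠ 0 := Nat.card_pos.ne'
    have a := (hp.dvd_iff_one_le_factorization hn).1 h1
    have b : ¬ 2 ≤ (Nat.card Γ).factorization 3 := fun h2 =>
      h9 ((hp.pow_dvd_iff_le_factorization (k := 2) hn).2 h2)
    omega
  let P : Sylow 3 Γ := Sylow.ofCard H (by rw [hH, h7, pow_one])
  let R : Sylow 3 Γ := Sylow.ofCard K (by rw [hK, h7, pow_one])
  obtain ⟨g, hg⟩ := MulAction.exists_smul_eq Γ R P
  refine ⟨g, ?_⟩
  have h := congrArg (fun S : Sylow 3 Γ => (S : Subgroup Γ)) hg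
  simp only [P, R] at h
  exact h

/-- Lifts of order 3 of one element of order 3 of a quotient by a 2-group are conjugate. -/
theorem conj_lift_three {Γ : Type*} [Group Γ] [Finite Γ] (Q : Subgroup Γ) [Q.Normal] {n : ℕ}
    (hQ : Nat.card Q = 2 ^ n) {b y : Γ} (hb : orderOf b = 3) (hy : orderOf y = 3)
    (e : (QuotientGroup.mk y : Γ ⧸ Q) = QuotientGroup.mk b) : ∃ u ∈ Q, u * y * u⁻¹ = b := by
  haveI : Fact (Nat.Prime 3) := ⟨by norm_num⟩
  have hcop : Nat.Coprime 3 (Nat.card Q) := by
    rw [hQ]; exact Nat.Coprime.pow_right n (by norm_num)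
  have hob : orderOf (QuotientGroup.mk b : Γ ⧸ Q) = 3 := by
    refine orderOf_eq_prime (by rw [← QuotientGroup.mk_pow, ← hb, pow_orderOf_eq_one]; rfl) fun h1 => ?_
    rw [QuotientGroup.eq_one_iff] at h1
    have := Subgroup.orderOf_coe (⟨b, h1⟩ : Q) ▸ orderOf_dvd_natCard (⟨b, h1⟩ : Q)
    rw [hb] at this
    exact absurd (Nat.Coprime.eq_one_of_dvd hcop this) (by norm_num)
  set P : Subgroup Γ := (Subgroup.zpowers (QuotientGroup.mk b : Γ ⧸ Q)).comap (QuotientGroup.mk' Q)
    with hP
  have hcard : Nat.card P = 3 * Nat.card Q := by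
    have h1 := Subgroup.card_mul_index P
    rw [hP, Subgroup.index_comap_of_surjective _ (QuotientGroup.mk'_surjective _)] at h1
    have h2 := Subgroup.card_mul_index (Subgroup.zpowers (QuotientGroup.mk b : Γ ⧸ Q))
    have h3 := Subgroup.card_eq_card_quotient_mul_card_subgroup Q
    rw [Nat.card_zpowers, hob] at h2
    rw [← h2] at h3
    refine Nat.eq_of_mul_eq_mul_right (Nat.pos_of_ne_zero (Subgroup.index_ne_zero_of_finite
      (H := Subgroup.zpowers (QuotientGroup.mk b : Γ ⧸ Q)))) (h1.trans (h3.trans (by ring)))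
  have h9 : ¬ 9 ∣ Nat.card P := by
    intro h
    rw [hcard, show (9 : ℕ) = 3 * 3 from rfl] at h
    have h' : 3 ∣ Nat.card Q := Nat.dvd_of_mul_dvd_mul_left (by norm_num) h
    exact absurd (Nat.Coprime.eq_one_of_dvd hcop h') (by norm_num)
  have hbP : b ∈ P := Subgroup.mem_zpowers (QuotientGroup.mk b : Γ ⧸ Q)
  have hyP : y ∈ P := by
    show (QuotientGroup.mk y : Γ ⧸ Q) ∈ Subgroup.zpowers (QuotientGroup.mk b : Γ ⧸ Q)
    rw [e]; exact Subgroup.mem_zpowers _
  obtain ⟨p, hp⟩ := conj_three h9 (H := Subgroup.zpowers (⟨b, hbP⟩ : P))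
    (K := Subgroup.zpowers (⟨y, hyP⟩ : P))
    (by rw [Nat.card_zpowers, ← Subgroup.orderOf_coe]; exact hb)
    (by rw [Nat.card_zpowers, ← Subgroup.orderOf_coe]; exact hy)
  obtain ⟨i, hi⟩ := Subgroup.mem_zpowers_iff.1 (show (QuotientGroup.mk (p : Γ) : Γ ⧸ Q) ∈
    Subgroup.zpowers (QuotientGroup.mk b : Γ ⧸ Q) from p.2)
  have hu : (b ^ i)⁻¹ * (p : Γ) ∈ Q := by
    rw [← QuotientGroup.eq, QuotientGroup.mk_zpow, hi]
  refine ⟨_, hu, ?_⟩
  have hmem : p * (⟨y, hyP⟩ : P) * p⁻¹ ∈ Subgroup.zpowers (⟨b, hbP⟩ : P) := by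
    rw [← hp]; exact ⟨_, Subgroup.mem_zpowers _, rfl⟩
  obtain ⟨j, hj⟩ := Subgroup.mem_zpowers_iff.1 hmem
  have hj' : b ^ j = (p : Γ) * y * (p : Γ)⁻¹ := by
    have := congrArg Subtype.val hj
    simpa using this
  have hj1 : (QuotientGroup.mk b : Γ ⧸ Q) ^ j = QuotientGroup.mk b := by
    rw [← QuotientGroup.mk_zpow, hj', QuotientGroup.mk_mul, QuotientGroup.mk_mul, e,
      QuotientGroup.mk_inv, ← hi]
    group
  have hdvd : (3 : ℤ) ∣ j - 1 := by
    rw [show (3 : ℤ) = (orderOf (QuotientGroup.mk b : Γ ⧸ Q) : ℤ) by rw [hob]; rfl,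
      orderOf_dvd_iff_zpow_eq_one, zpow_sub, zpow_one, hj1, mul_inv_cancel]
  have hbj : b ^ j = b := by
    have h1 : b ^ (j - 1) = 1 := by
      rw [← orderOf_dvd_iff_zpow_eq_one, hb]; exact hdvd
    rw [zpow_sub, zpow_one] at h1
    exact mul_inv_eq_one.1 h1
  rw [hbj] at hj'
  calc (b ^ i)⁻¹ * (p : Γ) * y * ((b ^ i)⁻¹ * (p : Γ))⁻¹
      = (b ^ i)⁻¹ * ((p : Γ) * y * (p : Γ)⁻¹) * b ^ i := by group
    _ = b := by rw [← hj']; group

namespace Three

variable {G : Type*} [Group G] [Finite G] {z : G}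
  {Q : Subgroup (Subgroup.centralizer ({z} : Set G))} [Q.Normal]

variable {D : H18.Monster.Data z Q} {b : G} (S : Three D b)
include S

/-- The element in `C(z)`. -/
abbrev bC : Subgroup.centralizer ({z} : Set G) :=
  ⟨b, Subgroup.mem_centralizer_singleton_iff.2 S.hzb⟩

theorem orderC : orderOf S.bC = 3 := by rw [← Subgroup.orderOf_coe]; exact S.ord

theorem b_pow_three : b ^ 3 = 1 := by rw [← S.ord, pow_orderOf_eq_one]

theorem pow_two_eq {x : G} (hc : x * b = b * x) (h : x ^ 2 = 1) (hb : x ∈ Subgroup.zpowers b) :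
    x = 1 := by
  obtain ⟨j, rfl⟩ := Subgroup.mem_zpowers_iff.1 hb
  have h7 : (b ^ j) ^ 3 = 1 := by
    rw [← zpow_natCast, ← zpow_mul, mul_comm, zpow_mul, zpow_natCast, S.b_pow_three, one_zpow]
  calc b ^ j = (b ^ j) ^ 3 * ((b ^ j) ^ 2)⁻¹ := by group
    _ = 1 := by rw [h7, h, inv_one, mul_one]

/-- An element of `Q` commutes with `b` exactly when its class is fixed. -/
theorem comm_iff {x : V} (hx : IsLeech x) {q : Q}
    (hq : (QuotientGroup.mk q : Q ⧸ Subgroup.center Q) = D.mod.cls x) :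
    gv q * b = b * gv q ↔ D.mod.cls (permFun sig x) = D.mod.cls x := by
  have h1 := D.cls_conj S.bC sigA S.hb.symm hx q hq
  rw [act_sigA hx] at h1
  rw [h1, ← hq]
  set r : Q := ⟨S.bC * q * S.bC⁻¹, (inferInstance : Q.Normal).conj_mem _ q.2 S.bC⟩ with hr
  have hrv : gv r = b * gv q * b⁻¹ := rfl
  constructor
  · intro h
    congr 1
    exact gv_injective (by rw [hrv, ← h, mul_inv_cancel_right])
  · intro h
    rw [QuotientGroup.eq, D.center_iff] at h
    rcases h with e | e
    · have := congrArg gv (inv_mul_eq_one.1 e)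
      rw [hrv, mul_inv_eq_iff_eq_mul] at this
      exact this.symm
    · exfalso
      have e2 : q = r * D.zQ := by rw [← e, mul_inv_cancel_left]
      have e3 : gv q = b * gv q * b⁻¹ * z := congrArg gv e2
      have hzq : z * gv q = gv q * z :=
        (Subgroup.mem_centralizer_singleton_iff.1 (q : Subgroup.centralizer ({z} : Set G)).2).symm
      have e4 : b * gv q * b⁻¹ = gv q * z := by
        calc b * gv q * b⁻¹ = b * gv q * b⁻¹ * z * z := by rw [mul_assoc _ z z, D.z_sq, mul_one]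
          _ = gv q * z := by rw [← e3]
      have hn : ∀ n : ℕ, b ^ n * gv q * (b ^ n)⁻¹ = gv q * z ^ n := by
        intro n
        induction n with
        | zero => simp
        | succ n ih =>
          have hbz : b * z ^ n * b⁻¹ = z ^ n := by
            rw [(show Commute b z from S.hzb).pow_right n |>.eq, mul_inv_cancel_right]
          calc b ^ (n + 1) * gv q * (b ^ (n + 1))⁻¹ = b * (b ^ n * gv q * (b ^ n)⁻¹) * b⁻¹ := by
                rw [pow_succ']; group
            _ = b * gv q * b⁻¹ * (b * z ^ n * b⁻¹) := by rw [ih]; group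
            _ = gv q * z ^ (n + 1) := by rw [e4, hbz, mul_assoc, ← pow_succ']
      have := hn 3
      rw [S.b_pow_three, one_mul, inv_one, mul_one, show z ^ 3 = z by
        simp only [pow_succ, pow_zero, one_mul, D.z_sq]] at this
      exact D.z_ne_one (left_eq_mul.1 this)

/-- The classes fixed by the permutation contain fixed vectors. -/
theorem exists_fixed {q : Q} (h : gv q * b = b * gv q) :
    ∃ v, FixV v ∧ (QuotientGroup.mk q : Q ⧸ Subgroup.center Q) = D.mod.cls v := by
  obtain ⟨x, hx, hq⟩ := D.mod.cls_surj q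
  obtain ⟨t, ht, et⟩ := (D.cls_eq_iff (hx.permFun sig_mem) hx).1 ((S.comm_iff hx hq.symm).1 h)
  have hp : ∀ n : ℕ, ∃ u, IsLeech u ∧ permFun (sig ^ n) x - x = 2 • u := by
    intro n
    induction n with
    | zero => exact ⟨0, isLeech_zero, by rw [smul_zero, sub_eq_zero]; rfl⟩
    | succ n ih =>
      obtain ⟨u, hu, eu⟩ := ih
      refine ⟨permFun sig u + t, (hu.permFun sig_mem).add ht, ?_⟩
      rw [smul_add, ← et, show 2 • permFun sig u = permFun sig (2 • u) from rfl, ← eu,
        pow_succ']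
      show permFun (sig * sig ^ n) x - x =
        (permFun sig (permFun (sig ^ n) x) - permFun sig x) + (permFun sig x - x)
      rw [show permFun (sig * sig ^ n) x =
        permFun sig (permFun (sig ^ n) x) from rfl]
      abel
  choose u hu eu using hp
  set v : V := ∑ j ∈ Finset.range 3, permFun (sig ^ j) x with hv
  have hsum : ∀ (s : Finset ℕ) (f : ℕ → V), (∀ j, IsLeech (f j)) → IsLeech (∑ j ∈ s, f j) :=
    fun s f hf => AddSubgroup.sum_mem leechAdd fun j _ => hf j
  have hvL : IsLeech v := hsum _ _ fun j => hx.permFun (pow_mem sig_mem j)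
  have hfix : permFun sig v = v := by
    have e1 : permFun sig v = ∑ j ∈ Finset.range 3, permFun (sig ^ (j + 1)) x := by
      rw [hv]
      funext p
      show (∑ j ∈ Finset.range 3, permFun (sig ^ j) x) (sig.symm p) = _
      simp only [Finset.sum_apply, pow_succ']
      rfl
    have h2 := Finset.sum_range_succ' (fun j => permFun (sig ^ j) x) 3
    rw [Finset.sum_range_succ, sig_pow_three] at h2
    rw [e1]
    simp only [pow_zero] at h2
    exact (add_right_cancel h2).symm
  refine ⟨v, ⟨hvL, hfix⟩, ?_⟩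
  rw [← hq, D.cls_eq_iff hx hvL]
  refine ⟨-(x + ∑ j ∈ Finset.range 3, u j),
    (hx.add (hsum _ _ hu)).neg, ?_⟩
  have e3 : v = ∑ j ∈ Finset.range 3, (2 • u j + x) :=
    Finset.sum_congr rfl fun j _ => by rw [← eu j, sub_add_cancel]
  rw [e3, Finset.sum_add_distrib, ← Finset.smul_sum, Finset.sum_const, Finset.card_range]
  abel

/-- A fixed vector gives an element commuting with `b`. -/
theorem comm_of_fixed {v : V} (hv : FixV v) {q : Q}
    (hq : (QuotientGroup.mk q : Q ⧸ Subgroup.center Q) = D.mod.cls v) : gv q * b = b * gv q :=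
  (S.comm_iff hv.1 hq).2 (by rw [hv.2])

theorem code_unique {v w : V} (hv : FixV v) (hw : FixV w)
    (h : D.mod.cls v = D.mod.cls w) : code v = code w := by
  obtain ⟨t, ht, e⟩ := (D.cls_eq_iff hv.1 hw.1).1 h
  exact code_congr hw.1 ht e

/-! ### The subgroups -/

omit S in
/-- The joint centralizer. -/
abbrev cen (b : G) (z : G) : Subgroup G :=
  Subgroup.centralizer ({z} : Set G) ⊓ Subgroup.centralizer ({b} : Set G)

/-- The fixed part of `Q`. -/
def qFix (_S : Three D b) : Subgroup (cen b z) := D.F.subgroupOf (cen b z)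

/-- An element of the fixed part. -/
def mkFix {q : Q} (h : gv q * b = b * gv q) : S.qFix :=
  ⟨⟨gv q, (q : Subgroup.centralizer ({z} : Set G)).2, Subgroup.mem_centralizer_singleton_iff.2 h⟩,
    D.mem_F.2 ⟨q, rfl⟩⟩

/-- The element of `Q`. -/
noncomputable def qOf (r : S.qFix) : Q := (D.mem_F.1 r.2).choose

theorem gv_qOf (r : S.qFix) : gv (S.qOf r) = ((r : cen b z) : G) := (D.mem_F.1 r.2).choose_spec

theorem qOf_mul (r u : S.qFix) : S.qOf (r * u) = S.qOf r * S.qOf u :=
  gv_injective (by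
    show gv (S.qOf (r * u)) = gv (S.qOf r) * gv (S.qOf u)
    rw [S.gv_qOf, S.gv_qOf, S.gv_qOf]; rfl)

theorem qOf_comm (r : S.qFix) : gv (S.qOf r) * b = b * gv (S.qOf r) := by
  rw [S.gv_qOf]; exact Subgroup.mem_centralizer_singleton_iff.1 (r : cen b z).2.2

theorem qOf_mkFix {q : Q} (h : gv q * b = b * gv q) : S.qOf (S.mkFix h) = q :=
  gv_injective (S.gv_qOf _)

/-- The fixed vector of an element. -/
noncomputable def vec (r : S.qFix) : V := (S.exists_fixed (S.qOf_comm r)).choose

theorem fixV_vec (r : S.qFix) : FixV (S.vec r) :=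
  (S.exists_fixed (S.qOf_comm r)).choose_spec.1

theorem cls_vec (r : S.qFix) :
    (QuotientGroup.mk (S.qOf r) : Q ⧸ Subgroup.center Q) = D.mod.cls (S.vec r) :=
  (S.exists_fixed (S.qOf_comm r)).choose_spec.2

/-- The code of an element. -/
noncomputable def codeR : S.qFix →* Multiplicative Code :=
  MonoidHom.mk' (fun r => Multiplicative.ofAdd (code (S.vec r))) fun r u => by
    rw [← ofAdd_add, ← code_add (S.fixV_vec r).1 (S.fixV_vec u).1]
    congr 1
    refine S.code_unique (S.fixV_vec _) ((S.fixV_vec r).add (S.fixV_vec u)) ?_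
    rw [D.mod.cls_add (S.fixV_vec r).1 (S.fixV_vec u).1, ← S.cls_vec, ← S.cls_vec, ← S.cls_vec,
      S.qOf_mul, QuotientGroup.mk_mul]

/-- The code as a vector. -/
noncomputable abbrev cd (r : S.qFix) : Code := code (S.vec r)

theorem cd_mul (r u : S.qFix) : S.cd (r * u) = S.cd r + S.cd u :=
  congrArg Multiplicative.toAdd (map_mul S.codeR r u)

theorem cd_eq {v : V} (hv : FixV v) (r : S.qFix)
    (h : (QuotientGroup.mk (S.qOf r) : Q ⧸ Subgroup.center Q) = D.mod.cls v) :
    S.cd r = code v :=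
  S.code_unique (S.fixV_vec r) hv (by rw [← S.cls_vec, h])

/-- The central involution in the fixed part. -/
def zF : S.qFix :=
  ⟨⟨z, D.z_mem_C, Subgroup.mem_centralizer_singleton_iff.2 S.hzb.symm⟩, D.mem_F.2 ⟨D.zQ, rfl⟩⟩

theorem qOf_zF : S.qOf S.zF = D.zQ := gv_injective (S.gv_qOf _)

theorem zF_ne_one : S.zF ≠ 1 := fun h =>
  D.z_ne_one (congrArg (fun r : S.qFix => ((r : cen b z) : G)) h)

theorem zF_sq : S.zF * S.zF = 1 := Subtype.ext (Subtype.ext D.z_sq)

/-- The kernel of the code. -/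
theorem cd_eq_zero {r : S.qFix} : S.cd r = 0 ↔ r = 1 ∨ r = S.zF := by
  have hcoe : ∀ u : S.qFix, S.qOf r = S.qOf u → r = u := fun u e => by
    apply Subtype.ext; apply Subtype.ext
    rw [← S.gv_qOf, ← S.gv_qOf, e]
  have hq1 : S.qOf (1 : S.qFix) = 1 := gv_injective (S.gv_qOf _)
  constructor
  · intro h
    obtain ⟨t, ht, e⟩ := two_dvd_of_code (S.fixV_vec r) h
    have h1 : D.mod.cls (S.vec r) = 1 := by rw [e, two_nsmul, D.mod.cls_double ht]
    rcases (D.cls_eq_one_iff _ (S.cls_vec r)).1 h1 with e' | e'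
    · exact Or.inl (hcoe 1 (by rw [e', hq1]))
    · exact Or.inr (hcoe _ (by rw [e', S.qOf_zF]))
  · intro h
    rw [← code_zero]
    refine S.cd_eq FixV.zero r ?_
    have h0 : D.mod.cls (0 : V) = 1 := by
      have h1 := D.mod.cls_double isLeech_zero
      rwa [add_zero] at h1
    rw [h0, QuotientGroup.eq_one_iff, D.center_iff]
    rcases h with rfl | rfl
    · exact Or.inl hq1
    · exact Or.inr S.qOf_zF

/-- An element with a given code. -/
noncomputable def sec (c : Code) : S.qFix :=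
  S.mkFix (S.comm_of_fixed (fixV_repV c) (D.mod.mk_rep _))

theorem cd_sec (c : Code) : S.cd (S.sec c) = c :=
  (S.cd_eq (fixV_repV c) _ (by rw [sec, S.qOf_mkFix, D.mod.mk_rep])).trans (code_repV c)

theorem cd_fibre (r : S.qFix) : r = S.sec (S.cd r) ∨ r = S.sec (S.cd r) * S.zF := by
  have h : S.cd ((S.sec (S.cd r))⁻¹ * r) = 0 := by
    have e := S.cd_mul (S.sec (S.cd r)) ((S.sec (S.cd r))⁻¹ * r)
    rw [mul_inv_cancel_left, S.cd_sec] at e
    exact left_eq_add.1 e
  rcases S.cd_eq_zero.1 h with e | e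
  · exact Or.inl (inv_mul_eq_one.1 e).symm
  · exact Or.inr (inv_mul_eq_iff_eq_mul.1 e)

theorem card_qFix : Nat.card S.qFix = 2 ^ 13 := by
  have hsurj : Function.Surjective S.codeR := fun c =>
    ⟨S.sec (Multiplicative.toAdd c), congrArg Multiplicative.ofAdd (S.cd_sec _)⟩
  have h := Subgroup.card_mul_index S.codeR.ker
  rw [Subgroup.index_ker, MonoidHom.range_eq_top.2 hsurj, Subgroup.card_top] at h
  have hk : Nat.card S.codeR.ker = 2 := by
    rw [Nat.card_eq_two_iff' (1 : S.codeR.ker)]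
    refine ⟨⟨S.zF, MonoidHom.mem_ker.2 (congrArg Multiplicative.ofAdd (S.cd_eq_zero.2 (Or.inr rfl)))⟩,
      fun e => S.zF_ne_one (congrArg Subtype.val e), fun y hy => ?_⟩
    have hy0 : S.cd y.1 = 0 := congrArg Multiplicative.toAdd (MonoidHom.mem_ker.1 y.2)
    rcases S.cd_eq_zero.1 hy0 with e | e
    · exact absurd (Subtype.ext e) hy
    · exact Subtype.ext e
  rw [hk] at h
  rw [← h]
  simp [Nat.card_eq_fintype_card]

theorem qOf_commute_iff (r u : S.qFix) : r * u = u * r ↔ (16 : ℤ) ∣ dotInt (S.vec r) (S.vec u) := by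
  rw [← D.mod.commute_iff (S.fixV_vec r).1 (S.fixV_vec u).1 (S.cls_vec r) (S.cls_vec u),
    ← S.qOf_mul, ← S.qOf_mul]
  constructor
  · intro h; rw [h]
  · intro h
    apply Subtype.ext; apply Subtype.ext
    rw [← S.gv_qOf, ← S.gv_qOf, h]

theorem qFix_center (r : S.qFix) : r ∈ Subgroup.center S.qFix ↔ r = 1 ∨ r = S.zF := by
  constructor
  · intro h
    by_contra hne
    refine hne (S.cd_eq_zero.1 (code_eq_zero_of_pairing (S.fixV_vec r) fun j => ?_))
    set c : Code := fun i => if i = j then 1 else 0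
    have h16 := (S.qOf_commute_iff r (S.sec c)).1 (Subgroup.mem_center_iff.1 h _).symm
    obtain ⟨s, hs, e'⟩ := congr_of_code (S.fixV_vec (S.sec c)) (fixV_unitV j)
      ((S.cd_sec c).trans (code_unitV j).symm)
    have h2 := dvd_of_congr (S.fixV_vec r).1 (S.fixV_vec _).1 (S.fixV_vec r).1 isLeech_zero hs
      (by rw [sub_self, smul_zero]) e' h16
    rwa [dotInt_comm]
  · rintro (rfl | rfl)
    · exact one_mem _
    · refine Subgroup.mem_center_iff.2 fun u => Subtype.ext (Subtype.ext ?_)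
      exact Subgroup.mem_centralizer_singleton_iff.1 (u : cen b z).2.1

theorem qFix_extraspecial : Cfsg.IsExtraspecial 2 S.qFix := by
  haveI : Fact (Nat.Prime 2) := ⟨Nat.prime_two⟩
  refine H24.isExtraspecial_of (IsPGroup.of_card S.card_qFix) ?_ ?_ ?_ ?_
  · rw [Nat.card_eq_two_iff' (1 : Subgroup.center S.qFix)]
    refine ⟨⟨S.zF, (S.qFix_center _).2 (Or.inr rfl)⟩, fun e => S.zF_ne_one (congrArg Subtype.val e),
      fun y hy => ?_⟩
    rcases (S.qFix_center _).1 y.2 with e | e
    · exact absurd (Subtype.ext e) hy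
    · exact Subtype.ext e
  · intro htop
    have h := (S.qFix_center _).1 (htop ▸ Subgroup.mem_top (S.sec fun _ => 1))
    have h0 := S.cd_eq_zero.2 h
    rw [S.cd_sec] at h0
    exact absurd (congrFun h0 0) (by simp)
  · intro a c
    rw [S.qFix_center, ← S.cd_eq_zero]
    have h : S.codeR ⁅a, c⁆ = 1 := by
      rw [map_commutatorElement, commutatorElement_eq_one_iff_mul_comm]
      exact mul_comm _ _
    exact congrArg Multiplicative.toAdd h
  · intro a
    rw [S.qFix_center, ← S.cd_eq_zero, pow_two, S.cd_mul]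
    funext i
    exact CharTwo.add_self_eq_zero _

/-! ### The quotient -/

variable [hn : ((Subgroup.zpowers b).subgroupOf
  (Subgroup.centralizer ((Subgroup.zpowers b : Subgroup G) : Set G))).Normal]

omit S [Finite G] hn in
theorem mem_cent {a : G} :
    a ∈ Subgroup.centralizer ((Subgroup.zpowers b : Subgroup G) : Set G) ↔ a * b = b * a := by
  constructor
  · intro h
    exact (Subgroup.mem_centralizer_iff.1 h b (Subgroup.mem_zpowers b)).symm
  · intro h
    refine Subgroup.mem_centralizer_iff.2 fun y hy => ?_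
    obtain ⟨j, rfl⟩ := Subgroup.mem_zpowers_iff.1 hy
    exact ((show Commute a b from h).zpow_right j).eq.symm

omit S in
/-- The quotient of the centralizer of `b`. -/
abbrev NQ (b : G) [((Subgroup.zpowers b).subgroupOf
    (Subgroup.centralizer ((Subgroup.zpowers b : Subgroup G) : Set G))).Normal] : Type _ :=
  Subgroup.centralizer ((Subgroup.zpowers b : Subgroup G) : Set G) ⧸
    (Subgroup.zpowers b).subgroupOf (Subgroup.centralizer ((Subgroup.zpowers b : Subgroup G) : Set G))

/-- The image of `z`. -/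
def zbar : NQ b := QuotientGroup.mk ⟨z, mem_cent.2 S.hzb.symm⟩

theorem zbar_def : S.zbar = QuotientGroup.mk ⟨z, mem_cent.2 S.hzb.symm⟩ := rfl

theorem bar_comm_iff (a : Subgroup.centralizer ((Subgroup.zpowers b : Subgroup G) : Set G)) :
    (QuotientGroup.mk a : NQ b) ∈ Subgroup.centralizer ({S.zbar} : Set (NQ b)) ↔
      (a : G) * z = z * a := by
  rw [Subgroup.mem_centralizer_singleton_iff, zbar_def, ← QuotientGroup.mk_mul,
    ← QuotientGroup.mk_mul, QuotientGroup.eq, Subgroup.mem_subgroupOf]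
  constructor
  · intro h
    set β := ((a * ⟨z, mem_cent.2 S.hzb.symm⟩)⁻¹ * (⟨z, mem_cent.2 S.hzb.symm⟩ * a) :
      Subgroup.centralizer ((Subgroup.zpowers b : Subgroup G) : Set G)).1 with hβ
    have hβ' : β = ((a : G) * z)⁻¹ * (z * a) := rfl
    have hzb : β * z = z * β := by
      obtain ⟨j, hj⟩ := Subgroup.mem_zpowers_iff.1 h
      rw [← hj]
      exact ((show Commute z b from S.hzb.symm).zpow_right j).eq.symm
    have hcb : β * b = b * β := by
      obtain ⟨j, hj⟩ := Subgroup.mem_zpowers_iff.1 h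
      rw [← hj]
      exact (Commute.refl b).zpow_left j |>.eq
    have e1 : z * β = (a : G)⁻¹ * z * a := by
      rw [hβ', mul_inv_rev, inv_eq_of_mul_eq_one_right D.z_sq]
      calc z * (z * (a : G)⁻¹ * (z * a)) = (z * z) * ((a : G)⁻¹ * z * a) := by group
        _ = (a : G)⁻¹ * z * a := by rw [D.z_sq, one_mul]
    have e2 : β ^ 2 = 1 := by
      have : (z * β) * (z * β) = 1 := by
        rw [e1]
        calc (a : G)⁻¹ * z * a * ((a : G)⁻¹ * z * a) = (a : G)⁻¹ * (z * z) * a := by group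
          _ = 1 := by rw [D.z_sq]; group
      calc β ^ 2 = z * (z * β) * β := by rw [← mul_assoc z z, D.z_sq, one_mul, pow_two]
        _ = z * (β * z) * β := by rw [hzb]
        _ = (z * β) * (z * β) := by group
        _ = 1 := this
    have := S.pow_two_eq hcb e2 h
    rw [hβ', inv_mul_eq_one] at this
    exact this
  · intro h
    show ((a : G) * z)⁻¹ * (z * a) ∈ Subgroup.zpowers b
    rw [h, inv_mul_cancel]
    exact Subgroup.one_mem _

/-- The projection onto the centralizer of the image of `z`. -/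
def proj : cen b z →* Subgroup.centralizer ({S.zbar} : Set (NQ b)) where
  toFun a := ⟨QuotientGroup.mk ⟨(a : G),
      mem_cent.2 (Subgroup.mem_centralizer_singleton_iff.1 a.2.2)⟩,
    (S.bar_comm_iff _).2 (Subgroup.mem_centralizer_singleton_iff.1 a.2.1)⟩
  map_one' := rfl
  map_mul' _ _ := rfl

theorem proj_surjective : Function.Surjective S.proj := by
  rintro ⟨x, hx⟩
  obtain ⟨a, rfl⟩ := QuotientGroup.mk_surjective x
  exact ⟨⟨(a : G), Subgroup.mem_centralizer_singleton_iff.2 ((S.bar_comm_iff a).1 hx),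
    Subgroup.mem_centralizer_singleton_iff.2 (mem_cent.1 a.2)⟩, rfl⟩

theorem proj_eq_iff {a c : cen b z} :
    S.proj a = S.proj c ↔ (a : G)⁻¹ * c ∈ Subgroup.zpowers b := by
  rw [Subtype.ext_iff]
  show (QuotientGroup.mk _ : NQ b) = QuotientGroup.mk _ ↔ _
  rw [QuotientGroup.eq, Subgroup.mem_subgroupOf]
  rfl

theorem mem_ker_proj {a : cen b z} : a ∈ S.proj.ker ↔ (a : G) ∈ Subgroup.zpowers b := by
  rw [MonoidHom.mem_ker, ← map_one S.proj, eq_comm, S.proj_eq_iff, Subgroup.coe_one, inv_one, one_mul]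

/-- The projection on the fixed part is injective. -/
theorem proj_inj {r u : S.qFix} (h : S.proj (r : cen b z) = S.proj (u : cen b z)) : r = u := by
  rw [S.proj_eq_iff] at h
  set d : S.qFix := r⁻¹ * u with hd
  have hdG : ((d : cen b z) : G) ∈ Subgroup.zpowers b := h
  have h7 : orderOf ((d : cen b z) : G) ∣ 3 := by
    obtain ⟨j, hj⟩ := Subgroup.mem_zpowers_iff.1 hdG
    rw [orderOf_dvd_iff_pow_eq_one, ← hj, ← zpow_natCast, ← zpow_mul, mul_comm, zpow_mul,
      zpow_natCast, S.b_pow_three, one_zpow]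
  have h2 : orderOf ((d : cen b z) : G) ∣ 2 ^ 13 := by
    rw [Subgroup.orderOf_coe, Subgroup.orderOf_coe, ← S.card_qFix]
    exact orderOf_dvd_natCard d
  have h1 := Nat.Coprime.eq_one_of_dvd (Nat.Coprime.coprime_dvd_left h7 (by norm_num)) h2
  rw [orderOf_eq_one_iff] at h1
  exact inv_mul_eq_one.1 (Subtype.ext (Subtype.ext h1) : d = 1)

/-- The image of the fixed part. -/
def R : Subgroup (Subgroup.centralizer ({S.zbar} : Set (NQ b))) := S.qFix.map S.proj

/-- The fixed part and its image. -/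
noncomputable def equivR : S.qFix ≃* S.R :=
  MulEquiv.ofBijective
    ((S.proj.comp S.qFix.subtype).codRestrict S.R fun r => ⟨_, r.2, rfl⟩)
    ⟨fun _ _ h => S.proj_inj (congrArg Subtype.val h), fun ⟨_, a, ha, e⟩ => ⟨⟨a, ha⟩, Subtype.ext e⟩⟩


end Three

end Cfsg.Agent.H57.MonsterThree
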