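import Cfsg.Agent.H57.MonsterThree.Action
import Cfsg.Agent.H18.Monster.HeldSylow
import Cfsg.Agent.H14.CrossBlock

/-!
The Sylow 3-subgroups of the centralizer of two commuting conjugates of the central involution have
centre of order three, and a central element of order three can be put in standard position.
-/

set_option autoImplicit false
set_option maxRecDepth 100000

namespace Cfsg.Agent.H57.MonsterThree

open Cfsg Cfsg.Agent.H14
open H18.Monster (permEmb permEmb_mem permEmb_eq_one_of_signSub negOne_mem_signSub)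
open H18.Monster.Data (Std card_pair exists_crossStab_card gv gv_injective)

/-! ### Groups of order 27 -/

theorem center_card_three {P : Type*} [Group P] (hP : Nat.card P = 27) {a c : P}
    (h : a * c ≠ c * a) :
    Nat.card (Subgroup.center P) = 3 ∧ ∀ u v : P, u * v * u⁻¹ * v⁻¹ ∈ Subgroup.center P := by
  haveI : Fact (Nat.Prime 3) := ⟨Nat.prime_three⟩
  haveI : Finite P := Nat.finite_of_card_ne_zero (by omega)
  have hp : IsPGroup 3 P := IsPGroup.of_card (n := 3) (by rw [hP]; norm_num)
  haveI : Nontrivial P := Finite.one_lt_card_iff_nontrivial.1 (by omega)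
  have h1 := hp.center_nontrivial
  have h1' : 1 < Nat.card (Subgroup.center P) := Finite.one_lt_card
  have hd : Nat.card (Subgroup.center P) ∣ 3 ^ 3 :=
    (show (3 : ℕ) ^ 3 = Nat.card P by rw [hP]; norm_num) ▸ Subgroup.card_subgroup_dvd_card _
  obtain ⟨k, hk3, hk⟩ := (Nat.dvd_prime_pow Nat.prime_three).1 hd
  have hidx := (Subgroup.center P).card_mul_index
  rw [hk, hP] at hidx
  have hk1 : k = 1 := by
    interval_cases k
    · rw [pow_zero] at hk; omega
    · rfl
    · exfalso
      norm_num at hidx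
      haveI : IsCyclic (P ⧸ Subgroup.center P) :=
        isCyclic_of_prime_card (p := 3) (by rw [← Subgroup.index]; omega)
      exact h (commutative_of_cyclic_center_quotient (QuotientGroup.mk' (Subgroup.center P))
        (by rw [QuotientGroup.ker_mk']) a c)
    · exfalso
      have e : Subgroup.center P = ⊤ := Subgroup.eq_top_of_card_eq _ (by rw [hk, hP]; norm_num)
      exact h ((Subgroup.mem_center_iff.1 (e ▸ Subgroup.mem_top a) c).symm)
  subst hk1
  norm_num at hidx
  refine ⟨hk.trans (pow_one 3), fun u v => ?_⟩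
  have hq : Nat.card (P ⧸ Subgroup.center P) = 3 ^ 2 := by rw [← Subgroup.index]; norm_num; omega
  have hc := IsPGroup.commutative_of_card_eq_prime_sq hq (QuotientGroup.mk u) (QuotientGroup.mk v)
  rw [← QuotientGroup.eq_one_iff]
  simp only [QuotientGroup.mk_mul, QuotientGroup.mk_inv, hc]
  group

/-! ### The group generated by the two auxiliary permutations -/

theorem aux_facts : sig * permA = permA * sig ∧ sig * permB = permB * sig ∧
    (∀ i j : Fin 3, permB ^ j.val * permA ^ i.val = permA ^ i.val * permB ^ j.val * sig ^ (2 * j.val * i.val)) ∧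
    (∀ i j k : Fin 3, (permA ^ i.val * permB ^ j.val * sig ^ k.val) ^ 3 = 1) := by
  refine ⟨?_, ?_, ?_, ?_⟩
  · ext p : 1; revert p; decide +kernel
  · ext p : 1; revert p; decide +kernel
  · intro i j; ext p : 1; revert i j p; decide +kernel
  · intro i j k; ext p : 1; revert i j k p; decide +kernel

/-- The two auxiliary permutations in the code group. -/
noncomputable def gA : M24 := ⟨permA, permA_mem⟩

/-- The second one. -/
noncomputable def gB : M24 := ⟨permB, permB_mem⟩

/-- The permutation in the code group. -/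
noncomputable def gS : M24 := ⟨sig, sig_mem⟩

/-- A group of order 27 around the permutation. -/
noncomputable def auxP : Subgroup M24 := Subgroup.closure {gA, gB}

theorem auxP_isPGroup : IsPGroup 3 auxP := by
  have hmod : ∀ (g : Equiv.Perm GolayPt), g ^ 3 = 1 → ∀ n : ℕ, g ^ n = g ^ (n % 3) := fun g hg n => by
    conv_lhs => rw [← Nat.mod_add_div n 3, pow_add, pow_mul, hg, one_pow, mul_one]
  let S : Submonoid M24 :=
    { carrier := {x | ∃ i j k : ℕ, (x : Equiv.Perm GolayPt) = permA ^ i * permB ^ j * sig ^ k}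
      one_mem' := ⟨0, 0, 0, by simp⟩
      mul_mem' := by
        rintro x y ⟨i, j, k, hx⟩ ⟨i', j', k', hy⟩
        refine ⟨i + i', j + j', 2 * (j % 3) * (i' % 3) + k + k', ?_⟩
        have hca : ∀ n m : ℕ, sig ^ n * permA ^ m = permA ^ m * sig ^ n := fun n m =>
          ((show Commute sig permA from aux_facts.1).pow_pow n m).eq
        have hcb : ∀ n m : ℕ, sig ^ n * permB ^ m = permB ^ m * sig ^ n := fun n m =>
          ((show Commute sig permB from aux_facts.2.1).pow_pow n m).eq
        have hba : permB ^ j * permA ^ i' =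
            permA ^ i' * permB ^ j * sig ^ (2 * (j % 3) * (i' % 3)) := by
          rw [hmod permA aux_pow.1 i', hmod permB aux_pow.2.1 j]
          exact aux_facts.2.2.1 ⟨i' % 3, Nat.mod_lt _ (by norm_num)⟩ ⟨j % 3, Nat.mod_lt _ (by norm_num)⟩
        calc ((x * y : M24) : Equiv.Perm GolayPt)
            = permA ^ i * permB ^ j * sig ^ k * (permA ^ i' * permB ^ j' * sig ^ k') := by
              rw [Subgroup.coe_mul, hx, hy]
          _ = permA ^ i * (permB ^ j * permA ^ i') * sig ^ k * permB ^ j' * sig ^ k' := by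
              simp only [mul_assoc]
              rw [← mul_assoc (sig ^ k) (permA ^ i'), hca, mul_assoc]
          _ = permA ^ i * permA ^ i' * permB ^ j * permB ^ j' *
              (sig ^ (2 * (j % 3) * (i' % 3)) * sig ^ k * sig ^ k') := by
              rw [hba]
              simp only [mul_assoc]
              rw [← mul_assoc (sig ^ k) (permB ^ j'), hcb, mul_assoc,
                ← mul_assoc (sig ^ (2 * (j % 3 * (i' % 3)))) (permB ^ j'), hcb, mul_assoc]
          _ = _ := by simp only [pow_add, mul_assoc] }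
  have hle : ∀ x ∈ auxP, x ∈ S := by
    intro x hx
    rw [auxP, ← Subgroup.mem_toSubmonoid, Subgroup.closure_toSubmonoid_of_finite] at hx
    refine Submonoid.closure_le.2 ?_ hx
    rintro y (rfl | rfl)
    · exact ⟨1, 0, 0, by simp [gA]⟩
    · exact ⟨0, 1, 0, by simp [gB]⟩
  intro x
  obtain ⟨i, j, k, h⟩ := hle x.1 x.2
  refine ⟨1, Subtype.ext (Subtype.ext ?_)⟩
  rw [pow_one, Subgroup.coe_pow, Subgroup.coe_pow, h, hmod permA aux_pow.1 i,
    hmod permB aux_pow.2.1 j, hmod sig sig_pow_three k]
  exact aux_facts.2.2.2 ⟨i % 3, Nat.mod_lt _ (by norm_num)⟩ ⟨j % 3, Nat.mod_lt _ (by norm_num)⟩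
    ⟨k % 3, Nat.mod_lt _ (by norm_num)⟩

theorem gS_comm : gA * gB * gA⁻¹ * gB⁻¹ = gS := by
  apply Subtype.ext
  show permA * permB * permA⁻¹ * permB⁻¹ = sig
  rw [aux_pow.2.2, mul_inv_cancel_right, mul_inv_cancel_right]

/-- The monomial group modulo scalars. -/
noncomputable def crossImg : Subgroup Cfsg.Spor.Co1 :=
  crossStab.map (QuotientGroup.mk' (Subgroup.center Co0))

theorem card_crossImg : Nat.card crossImg = 2048 * 244823040 := by
  have h1 := Subgroup.card_mul_index
    (((QuotientGroup.mk' (Subgroup.center Co0)).comp crossStab.subtype).ker)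
  rw [Subgroup.index_ker, MonoidHom.range_comp, Subgroup.range_subtype, ← MonoidHom.comap_ker,
    QuotientGroup.ker_mk', exists_crossStab_card] at h1
  have hle : Subgroup.center Co0 ≤ crossStab := fun k hk => by
    rcases mem_center_iff.1 hk with rfl | rfl
    exacts [one_mem _, H18.Monster.signSub_le negOne_mem_signSub]
  rw [show Nat.card ((Subgroup.center Co0).comap crossStab.subtype) = 2 by
    rw [← H14.card_center, ← Nat.card_congr (Subgroup.subgroupOfEquivOfLe hle).toEquiv]
    rfl] at h1
  exact Nat.eq_of_mul_eq_mul_left (n := 2) (by norm_num) (h1.trans (by norm_num))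

theorem factorization_three {n j : ℕ} (h : n = 2048 * 244823040 * 2 ^ j) :
    n.factorization 3 = 3 := by
  have hm : ¬ 3 ∣ 2048 * 9067520 * 2 ^ j := by
    intro hd
    have hc : Nat.Coprime 3 (2 ^ j) := Nat.Coprime.pow_right j (by norm_num)
    have := hc.dvd_of_dvd_mul_right hd
    norm_num at this
  rw [show n = 3 ^ 3 * (2048 * 9067520 * 2 ^ j) by rw [h]; ring,
    Nat.factorization_mul (by norm_num) (by positivity), Finsupp.add_apply,
    Nat.prime_three.factorization_pow, Finsupp.single_eq_same,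
    Nat.factorization_eq_zero_of_not_dvd hm]

/-- A Sylow subgroup of the monomial group modulo scalars: order 27, nonabelian, the permutation in
its centre. -/
theorem exists_sylow_crossImg : ∃ (S : Sylow 3 crossImg) (hσ : (QuotientGroup.mk sigA : Spor.Co1) ∈ crossImg),
    Nat.card (S : Subgroup crossImg) = 27 ∧ Nat.card (Subgroup.center (S : Subgroup crossImg)) = 3 ∧
      ∃ h : (⟨_, hσ⟩ : crossImg) ∈ (S : Subgroup crossImg),
        (⟨_, h⟩ : (S : Subgroup crossImg)) ∈ Subgroup.center (S : Subgroup crossImg) ∧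
          (QuotientGroup.mk sigA : Spor.Co1) ≠ 1 := by
  haveI : Fact (Nat.Prime 3) := ⟨Nat.prime_three⟩
  let ψ : M24 →* crossImg :=
    ((QuotientGroup.mk' (Subgroup.center Co0)).comp permEmb).codRestrict crossImg
      fun s => ⟨_, permEmb_mem s, rfl⟩
  have hψ : Function.Injective ψ := (injective_iff_map_eq_one ψ).2 fun s hs => by
    have h := congrArg Subtype.val hs
    have h' : permEmb s ∈ Subgroup.center Co0 := (QuotientGroup.eq_one_iff _).1 h
    refine permEmb_eq_one_of_signSub ?_
    rcases mem_center_iff.1 h' with e | e <;> rw [e]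
    exacts [one_mem _, negOne_mem_signSub]
  obtain ⟨S, hS⟩ := (auxP_isPGroup.map ψ).exists_le_sylow
  have hcard : Nat.card (S : Subgroup crossImg) = 27 := by
    rw [S.card_eq_multiplicity, factorization_three (j := 0) (by rw [card_crossImg, pow_zero, mul_one])]
    norm_num
  have hA : ψ gA ∈ (S : Subgroup crossImg) := hS ⟨_, Subgroup.subset_closure (Or.inl rfl), rfl⟩
  have hB : ψ gB ∈ (S : Subgroup crossImg) := hS ⟨_, Subgroup.subset_closure (Or.inr rfl), rfl⟩
  have hne : gS ≠ 1 := fun e => sig_ne_one (congrArg Subtype.val e)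
  have hnc : (⟨_, hA⟩ : (S : Subgroup crossImg)) * ⟨_, hB⟩ ≠ ⟨_, hB⟩ * ⟨_, hA⟩ := by
    intro e
    have e' := congrArg Subtype.val e
    simp only [Subgroup.coe_mul, ← map_mul] at e'
    refine hne ?_
    rw [← gS_comm, hψ e']
    group
  obtain ⟨h3, hc⟩ := center_card_three hcard hnc
  have hσ' : ψ gS ∈ (S : Subgroup crossImg) := by
    rw [← gS_comm]; simp only [map_mul, map_inv]
    exact mul_mem (mul_mem (mul_mem hA hB) (inv_mem hA)) (inv_mem hB)
  refine ⟨S, (ψ gS).2, hcard, h3, hσ', ?_, ?_⟩
  · have := hc ⟨_, hA⟩ ⟨_, hB⟩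
    convert this using 1
    apply Subtype.ext
    show ψ gS = ψ gA * ψ gB * (ψ gA)⁻¹ * (ψ gB)⁻¹
    rw [← gS_comm]; simp only [map_mul, map_inv]
  · intro e
    exact hne (hψ (by rw [map_one]; exact Subtype.ext e))

/-! ### The joint centralizer -/

variable {G : Type*} [Group G] [Finite G] {z : G}
  {Q : Subgroup (Subgroup.centralizer ({z} : Set G))} [Q.Normal] (D : H18.Monster.Data z Q)

omit [Finite G] in
theorem mem_pair {x a : G} :
    a ∈ Subgroup.centralizer ({z, x} : Set G) ↔ a * z = z * a ∧ a * x = x * a := by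
  simp only [Subgroup.mem_centralizer_iff, Set.mem_insert_iff, Set.mem_singleton_iff, forall_eq_or_imp,
    forall_eq]
  exact and_congr eq_comm eq_comm

omit [Finite G] in
theorem pair_eq (x : G) : Subgroup.centralizer ({z, x} : Set G) =
    Subgroup.centralizer ({z} : Set G) ⊓ Subgroup.centralizer ({x} : Set G) := by
  ext g; simp [Subgroup.mem_centralizer_iff]

/-- The map of the joint centralizer to the monomial group modulo scalars. -/
noncomputable def toCross {q : Q} {g : G} (h : Std D q g) :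
    Subgroup.centralizer ({z, gv q} : Set G) →* crossImg :=
  ((D.e.toMonoidHom.comp (QuotientGroup.mk' Q)).comp
      ({ toFun := fun a => ⟨(a : G), Subgroup.mem_centralizer_singleton_iff.2 (mem_pair.1 a.2).1⟩
         map_one' := rfl
         map_mul' := fun _ _ => rfl } :
        Subgroup.centralizer ({z, gv q} : Set G) →* Subgroup.centralizer ({z} : Set G))).codRestrict
    crossImg fun a => by
      have hmem : (QuotientGroup.mk (⟨(a : G), Subgroup.mem_centralizer_singleton_iff.2
            (mem_pair.1 a.2).1⟩ : Subgroup.centralizer ({z} : Set G)) :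
          Subgroup.centralizer ({z} : Set G) ⧸ Q) ∈ crossStab.map h.toQuot := by
        rw [← h.stab_eq]
        exact ⟨_, ⟨Subgroup.mem_centralizer_singleton_iff.2 (mem_pair.1 a.2).1,
          Subgroup.mem_centralizer_singleton_iff.2 (mem_pair.1 a.2).2⟩, rfl⟩
      obtain ⟨k, hk, e⟩ := hmem
      exact ⟨k, hk, h.toQuot_eq_iff.1 e⟩

theorem toCross_coe {q : Q} {g : G} (h : Std D q g)
    (a : Subgroup.centralizer ({z, gv q} : Set G)) :
    (toCross D h a : Spor.Co1) = D.e (QuotientGroup.mk
      ⟨(a : G), Subgroup.mem_centralizer_singleton_iff.2 (mem_pair.1 a.2).1⟩) := rfl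

theorem toCross_ker {q : Q} {g : G} (h : Std D q g) : IsPGroup 2 (toCross D h).ker := by
  haveI : Fact (Nat.Prime 2) := ⟨Nat.prime_two⟩
  refine (IsPGroup.of_card D.hset.2.2.2.1).of_injective
    ({ toFun := fun a => ⟨⟨((a : Subgroup.centralizer ({z, gv q} : Set G)) : G),
          Subgroup.mem_centralizer_singleton_iff.2 (mem_pair.1 a.1.2).1⟩, by
            rw [← QuotientGroup.eq_one_iff]
            apply D.e.injective
            rw [map_one]
            exact congrArg Subtype.val (MonoidHom.mem_ker.1 a.2)⟩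
       map_one' := rfl
       map_mul' := fun _ _ => rfl } : (toCross D h).ker →* Q) ?_
  intro a b e
  exact Subtype.ext (Subtype.ext (congrArg gv e))

/-- The image of a Sylow subgroup, and the injectivity of the map on it. -/
theorem sylow_image {q : Q} (h1 : IsConj z (gv q)) {g : G} (h : Std D q g)
    (P : Sylow 3 (Subgroup.centralizer ({z, gv q} : Set G))) :
    Function.Injective ((toCross D h).comp (P : Subgroup _).subtype) ∧
      Nat.card (P : Subgroup (Subgroup.centralizer ({z, gv q} : Set G))) = 27 := by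
  haveI : Fact (Nat.Prime 3) := ⟨Nat.prime_three⟩
  constructor
  · rw [injective_iff_map_eq_one]
    intro a ha
    obtain ⟨n, hn⟩ := P.isPGroup' a
    obtain ⟨m, hm⟩ := toCross_ker D h ⟨(a : Subgroup.centralizer ({z, gv q} : Set G)), MonoidHom.mem_ker.2 ha⟩
    have h3 : orderOf (a : Subgroup.centralizer ({z, gv q} : Set G)) ∣ 3 ^ n :=
      orderOf_dvd_of_pow_eq_one (congrArg Subtype.val hn)
    have h2 : orderOf (a : Subgroup.centralizer ({z, gv q} : Set G)) ∣ 2 ^ m :=
      orderOf_dvd_of_pow_eq_one (congrArg Subtype.val hm)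
    have h1 := Nat.Coprime.eq_one_of_dvd (Nat.Coprime.coprime_dvd_left h3
      ((Nat.coprime_pow_primes n m Nat.prime_three Nat.prime_two (by norm_num)))) h2
    exact Subtype.ext (orderOf_eq_one_iff.1 h1)
  · obtain ⟨j, hj⟩ := D.card_pair h1 h.hne
    rw [P.card_eq_multiplicity, factorization_three (j := j) (by rw [pair_eq, hj])]
    norm_num

/-- The images of the central elements of a Sylow subgroup are conjugate to powers of the permutation. -/
theorem center_image {q : Q} (h1 : IsConj z (gv q)) {g : G} (h : Std D q g)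
    (P : Sylow 3 (Subgroup.centralizer ({z, gv q} : Set G))) :
    Nat.card (Subgroup.center (P : Subgroup (Subgroup.centralizer ({z, gv q} : Set G)))) = 3 ∧
    ∃ x ∈ crossImg, ∀ a : (P : Subgroup (Subgroup.centralizer ({z, gv q} : Set G))),
      a ∈ Subgroup.center (P : Subgroup (Subgroup.centralizer ({z, gv q} : Set G))) →
        ∃ j : ℤ, (toCross D h a : Spor.Co1) = x * (QuotientGroup.mk sigA : Spor.Co1) ^ j * x⁻¹ := by
  haveI : Fact (Nat.Prime 3) := ⟨Nat.prime_three⟩
  obtain ⟨S, hσ, hScard, hS3, hσS, hσc, hσ1⟩ := exists_sylow_crossImg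
  obtain ⟨hinj, hP⟩ := sylow_image D h1 h P
  set f := (toCross D h).comp (P : Subgroup _).subtype with hf
  have hfr : Nat.card f.range = 27 := by
    rw [← hP, ← Nat.card_congr (MonoidHom.ofInjective hinj).toEquiv]
  let T : Sylow 3 crossImg := Sylow.ofCard f.range (by
    rw [hfr, factorization_three (j := 0) (by rw [card_crossImg, pow_zero, mul_one])]
    norm_num)
  obtain ⟨x, hx⟩ := MulAction.exists_smul_eq crossImg S T
  have hxr : ∀ u, u ∈ f.range ↔ x⁻¹ * u * x ∈ (S : Subgroup crossImg) := by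
    intro u
    have h' : ((x • S : Sylow 3 crossImg) : Subgroup crossImg) = f.range := by rw [hx]; rfl
    rw [← h']
    show u ∈ (S : Subgroup crossImg).map (MulAut.conj x).toMonoidHom ↔ _
    constructor
    · rintro ⟨v, hv, rfl⟩
      simp only [MulEquiv.coe_toMonoidHom, MulAut.conj_apply]
      rw [mul_assoc, inv_mul_cancel_right, inv_mul_cancel_left]
      exact hv
    · intro hu
      exact ⟨_, hu, by simp [mul_assoc]⟩
  -- noncentral pairs transfer
  obtain ⟨a, c, hac⟩ : ∃ a c : (P : Subgroup (Subgroup.centralizer ({z, gv q} : Set G))), a * c ≠ c * a := by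
    by_contra hcon
    push Not at hcon
    have : Subgroup.center (S : Subgroup crossImg) = ⊤ := by
      rw [eq_top_iff]
      intro v _
      refine Subgroup.mem_center_iff.2 fun w => Subtype.ext ?_
      obtain ⟨a, ha⟩ := (hxr (x * (v : crossImg) * x⁻¹)).2 (by simp [mul_assoc])
      obtain ⟨c, hc⟩ := (hxr (x * (w : crossImg) * x⁻¹)).2 (by simp [mul_assoc])
      have e := congrArg f (hcon c a)
      rw [map_mul, map_mul, ha, hc] at e
      show (w : crossImg) * v = v * w
      calc (w : crossImg) * v = x⁻¹ * ((x * w * x⁻¹) * (x * v * x⁻¹)) * x := by group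
        _ = x⁻¹ * ((x * v * x⁻¹) * (x * w * x⁻¹)) * x := by rw [e]
        _ = v * w := by group
    rw [this, Subgroup.card_top, hScard] at hS3
    omega
  obtain ⟨hc3, -⟩ := center_card_three hP hac
  refine ⟨hc3, (x : Spor.Co1), x.2, fun a ha => ?_⟩
  have hm : x⁻¹ * f a * x ∈ (S : Subgroup crossImg) := (hxr _).1 ⟨a, rfl⟩
  have hcen : (⟨_, hm⟩ : (S : Subgroup crossImg)) ∈ Subgroup.center (S : Subgroup crossImg) := by
    refine Subgroup.mem_center_iff.2 fun w => Subtype.ext ?_
    obtain ⟨c, hc⟩ := (hxr (x * (w : crossImg) * x⁻¹)).2 (by simp [mul_assoc])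
    have e := congrArg f (Subgroup.mem_center_iff.1 ha c)
    rw [map_mul, map_mul, hc] at e
    show (w : crossImg) * (x⁻¹ * f a * x) = x⁻¹ * f a * x * w
    calc (w : crossImg) * (x⁻¹ * f a * x) = x⁻¹ * ((x * w * x⁻¹) * f a) * x := by group
      _ = x⁻¹ * (f a * (x * w * x⁻¹)) * x := by rw [e]
      _ = _ := by group
  have hgen : Subgroup.zpowers (⟨_, hσS⟩ : (S : Subgroup crossImg)) = Subgroup.center (S : Subgroup crossImg) := by
    refine Subgroup.eq_of_le_of_card_ge (by rw [Subgroup.zpowers_le]; exact hσc) ?_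
    rw [hS3, Nat.card_zpowers]
    have h1 : orderOf (⟨_, hσS⟩ : (S : Subgroup crossImg)) = 3 := by
      refine orderOf_eq_prime (Subtype.ext (Subtype.ext ?_)) fun e => hσ1 (congrArg (fun t : (S : Subgroup crossImg) => ((t : crossImg) : Spor.Co1)) e)
      show (QuotientGroup.mk sigA : Spor.Co1) ^ 3 = 1
      rw [← QuotientGroup.mk_pow, sigA_three, QuotientGroup.mk_one]
    rw [h1]
  rw [← hgen] at hcen
  obtain ⟨j, hj⟩ := Subgroup.mem_zpowers_iff.1 hcen
  refine ⟨j, ?_⟩
  have e := congrArg (fun t : (S : Subgroup crossImg) => ((t : crossImg) : Spor.Co1)) hj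
  simp only [SubgroupClass.coe_zpow, Subgroup.coe_mul, Subgroup.coe_inv] at e
  rw [e]
  show (f a : Spor.Co1) = _
  group

include D in
theorem center_sylow_card {q : Q} (h1 : IsConj z (gv q)) (h2 : gv q ≠ z)
    (P : Sylow 3 (Subgroup.centralizer ({z, gv q} : Set G))) :
    Nat.card (Subgroup.center (P : Subgroup (Subgroup.centralizer ({z, gv q} : Set G)))) = 3 := by
  obtain ⟨D', hq⟩ := D.exists_standard h1 h2
  obtain ⟨g, hg⟩ := isConj_iff.1 h1
  exact (center_image D' h1 (g := g) ⟨hq, hg, h2⟩ P).1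

/-- An element of order three of `C(z)` in standard position. -/
structure Three (D : H18.Monster.Data z Q) (b : G) : Prop where
  hzb : b * z = z * b
  ord : orderOf b = 3
  hb : D.e (QuotientGroup.mk ⟨b, Subgroup.mem_centralizer_singleton_iff.2 hzb⟩) =
    (QuotientGroup.mk sigA : Cfsg.Spor.Co1)

include D in
theorem exists_three {q : Q} (h1 : IsConj z (gv q)) (h2 : gv q ≠ z) (Y : Subgroup G)
    (hY : Y ≤ Subgroup.centralizer ({z, gv q} : Set G)) (hY3 : Nat.card Y = 3)
    (P : Sylow 3 (Subgroup.centralizer ({z, gv q} : Set G)))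
    (hP : Y.subgroupOf (Subgroup.centralizer ({z, gv q} : Set G)) ≤
      (Subgroup.center ↥(P : Subgroup ↥(Subgroup.centralizer ({z, gv q} : Set G)))).map
        (P : Subgroup ↥(Subgroup.centralizer ({z, gv q} : Set G))).subtype) :
    ∃ (D' : H18.Monster.Data z Q) (b : G), Three D' b ∧ Y = Subgroup.zpowers b ∧
      (QuotientGroup.mk q : Q ⧸ Subgroup.center Q) = D'.mod.cls (eight oo) ∧
      ∃ (hbL : b ∈ Subgroup.centralizer ({z, gv q} : Set G))
        (hbP : (⟨b, hbL⟩ : Subgroup.centralizer ({z, gv q} : Set G)) ∈ (P : Subgroup _)),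
        (⟨_, hbP⟩ : (P : Subgroup (Subgroup.centralizer ({z, gv q} : Set G)))) ∈ Subgroup.center _ := by
  obtain ⟨D₁, hq⟩ := D.exists_standard h1 h2
  obtain ⟨g, hg⟩ := isConj_iff.1 h1
  have hstd : Std D₁ q g := ⟨hq, hg, h2⟩
  obtain ⟨-, x, ⟨k, hk, hkx⟩, hx⟩ := center_image D₁ h1 hstd P
  obtain ⟨⟨y, hy⟩, hy1⟩ : ∃ y : Y, y ≠ 1 := by
    haveI : Nontrivial Y := Finite.one_lt_card_iff_nontrivial.1 (by omega)
    exact exists_ne 1
  obtain ⟨a, ha, hay⟩ := hP (show (⟨y, hY hy⟩ : Subgroup.centralizer ({z, gv q} : Set G)) ∈ _ from hy)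
  obtain ⟨j, hj⟩ := hx a ha
  have hay' : (((a : Subgroup.centralizer ({z, gv q} : Set G))) : G) = y := congrArg Subtype.val hay
  have ha1 : a ≠ 1 := fun e => hy1 (Subtype.ext (by subst e; exact hay'.symm))
  have hj3 : ¬ (3 : ℤ) ∣ j := by
    rintro ⟨m, rfl⟩
    refine ha1 ((sylow_image D₁ h1 hstd P).1 ?_)
    rw [map_one]
    refine Subtype.ext ?_
    show (toCross D₁ hstd a : Spor.Co1) = 1
    rw [hj, zpow_mul, zpow_ofNat, ← QuotientGroup.mk_pow, sigA_three, QuotientGroup.mk_one, one_zpow]
    group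
  obtain ⟨m, hm⟩ : (3 : ℤ) ∣ j * j - 1 := by
    have hc : j % 3 = 1 ∨ j % 3 = 2 := by omega
    refine Int.dvd_of_emod_eq_zero ?_
    rw [Int.sub_emod, Int.mul_emod]
    rcases hc with e | e <;> rw [e] <;> rfl
  have haj : toCross D₁ hstd ((a ^ j : (P : Subgroup (Subgroup.centralizer ({z, gv q} : Set G)))) : Subgroup.centralizer ({z, gv q} : Set G)) = ⟨x * QuotientGroup.mk sigA * x⁻¹,
      mul_mem (mul_mem ⟨k, hk, hkx⟩ ⟨_, permAut_mem_crossStab sig sig_mem, rfl⟩) (inv_mem ⟨k, hk, hkx⟩)⟩ := by
    refine Subtype.ext ?_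
    rw [SubgroupClass.coe_zpow, map_zpow, SubgroupClass.coe_zpow, hj, conj_zpow, ← zpow_mul,
      show j * j = 3 * m + 1 by omega, zpow_add, zpow_mul, zpow_ofNat, ← QuotientGroup.mk_pow,
      sigA_three, QuotientGroup.mk_one, one_zpow, one_mul, zpow_one]
  set b := (((a ^ j : (P : Subgroup (Subgroup.centralizer ({z, gv q} : Set G)))) : Subgroup.centralizer ({z, gv q} : Set G)) : G) with hbd
  have hbL : b ∈ Subgroup.centralizer ({z, gv q} : Set G) := Subtype.coe_prop _
  have hby : b = y ^ j := by rw [hbd, ← hay']; simp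
  have hbY : b ∈ Y := hby ▸ Y.zpow_mem hy j
  have hb1 : b ≠ 1 := by
    intro e
    have h0 : (a ^ j : (P : Subgroup (Subgroup.centralizer ({z, gv q} : Set G)))) = 1 := Subtype.ext (Subtype.ext e)
    have := congrArg (fun t : (P : Subgroup (Subgroup.centralizer ({z, gv q} : Set G))) =>
      (toCross D₁ hstd (t : Subgroup.centralizer ({z, gv q} : Set G)) : Spor.Co1)) h0
    simp only [haj, OneMemClass.coe_one, map_one] at this
    have h3 := (conj_eq_one_iff).1 this
    rw [QuotientGroup.eq_one_iff, mem_center_iff] at h3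
    rcases h3 with e' | e'
    · exact sigA_ne_one e'
    · have := congrArg orderOf e'
      rw [orderOf_sigA, orderOf_eq_prime (p := 2) (by rw [pow_two, negOne_sq]) negOne_ne_one] at this
      omega
  haveI : Fact (Nat.Prime 3) := ⟨Nat.prime_three⟩
  have hbord : orderOf b = 3 := by
    have h : orderOf (⟨b, hbY⟩ : Y) ∣ 3 := hY3 ▸ orderOf_dvd_natCard _
    rcases (Nat.dvd_prime Nat.prime_three).1 h with h | h
    · exact absurd (congrArg Subtype.val (orderOf_eq_one_iff.1 h)) hb1
    · rwa [← Subgroup.orderOf_coe] at h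
  have hbz := (mem_pair.1 hbL).1
  refine ⟨D₁.twist k, b, ⟨hbz, hbord, ?_⟩, ?_, ?_, hbL, (a ^ j : (P : Subgroup (Subgroup.centralizer ({z, gv q} : Set G)))).2,
    Subgroup.zpow_mem _ ha j⟩
  · show (MulAut.conj (QuotientGroup.mk k : Cfsg.Spor.Co1)⁻¹) (D₁.e (QuotientGroup.mk _)) = _
    have e : D₁.e (QuotientGroup.mk (⟨b, Subgroup.mem_centralizer_singleton_iff.2 hbz⟩ :
        Subgroup.centralizer ({z} : Set G))) = x * QuotientGroup.mk sigA * x⁻¹ :=
      congrArg Subtype.val haj
    rw [e, ← hkx, MulAut.conj_apply]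
    simp only [QuotientGroup.mk'_apply]
    group
  · refine (Subgroup.eq_of_le_of_card_ge (by rw [Subgroup.zpowers_le]; exact hbY) ?_).symm
    rw [Nat.card_zpowers, hbord, hY3]
  · rw [D₁.twist_cls k (isLeech_eight oo), hstd.cls_fix_of_cross hk, hq]

end Cfsg.Agent.H57.MonsterThree
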